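import Cfsg.Agent.Lib.SuzRec.Det
import Cfsg.Agent.Lib.SuzRec.Data
import Cfsg.Agent.Lib.SuzRec.Data2
import Cfsg.Agent.Lib.SuzRec.Data3
import Cfsg.Agent.Lib.SuzRec.ChainData
import Cfsg.Agent.Lib.G24J2.Main
import Cfsg.Agent.Lib.TC.D.SuzG24.Tab

/-!
# Definitions and tools for the kernel checks on the graph of the Suzuki group
-/

set_option autoImplicit false
set_option maxRecDepth 100000

namespace Cfsg.Agent.Lib.SuzRec.Basic

open Cfsg.Agent.Lib.PermComp.Core Cfsg.Agent.Lib.FusionSimple2.Codes
open Cfsg.Agent.Lib.TC.Enc Cfsg.Agent.Lib.SuzRec.Chain Cfsg.Agent.Lib.SuzRec.Data Cfsg.Agent.Lib.SuzRec.Data2 Cfsg.Agent.Lib.SuzRec.Data3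
  Cfsg.Agent.Lib.SuzRec.Det Cfsg.Agent.Lib.SuzRec.ChainData
open Cfsg.Agent.Lib.G24J2 (T6 evalW maskL lettersOK lab0)

/-- A row of the adjacency matrix. -/
noncomputable def rowS (p : ℕ) : ℕ := rowST.get p

/-- The adjacency matrix. -/
noncomputable def adjS (x y : ℕ) : Bool := bit (rowS x) y

/-- The map from the `416` points to the neighbours of `0`. -/
def fp (p : ℕ) : ℕ := app 11 2047 fC p

/-- A letter on `1782` points. -/
noncomputable def Tc (c p : ℕ) : ℕ := app 11 2047 (nthN TS c) p

/-- A letter on `416` points. -/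
noncomputable def ap (c p : ℕ) : ℕ := app 9 511 (nthN T6 c) p

/-- Kernel friendly bounded quantification. -/
noncomputable def allN (P : ℕ → Bool) (n : ℕ) : Bool :=
  Nat.rec true (fun x ih => Bool.rec false ih (P x)) n

theorem allN_spec {P : ℕ → Bool} {n : ℕ} (h : allN P n = true) : ∀ x < n, P x = true := by
  induction n with
  | zero => intro x hx; omega
  | succ n ih =>
    have h' : Bool.rec false (allN P n) (P n) = true := h
    cases hP : P n with
    | false =>
      rw [hP] at h'
      exact Bool.noConfusion h'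
    | true =>
      rw [hP] at h'
      intro x hx
      rcases Nat.lt_succ_iff_lt_or_eq.1 hx with hlt | rfl
      · exact ih h' x hlt
      · exact hP

theorem bit_zero' (y : ℕ) : bit 0 y = false := by
  rw [bit_eq_testBit]
  simp

/-- The order of the entries of a forest is legal. -/
noncomputable def parOK : List (ℕ × ℕ × ℕ) → ℕ → Bool := fun t =>
  List.rec (motive := fun _ => ℕ → Bool) (fun _ => true)
    (fun e _ ih m => ifB (bit m e.2.2) (force (setBit m e.1) ih)) t

theorem tree_reach {R : ℕ → Prop} (t : List (ℕ × ℕ × ℕ)) (hstep : ∀ e ∈ t, R e.2.2 → R e.1) (m : ℕ)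
    (h : parOK t m = true) (hm : ∀ y, bit m y = true → R y) :
    ∀ y, bit (treeMem t m) y = true → R y := by
  induction t generalizing m with
  | nil => exact hm
  | cons e t ih =>
    have h' : ifB (bit m e.2.2) (force (setBit m e.1) (parOK t)) = true := h
    obtain ⟨h1, h2⟩ := (ifB_eq_true _ _).1 h'
    rw [force_eq] at h2
    intro y hy
    have hy' : bit (force (setBit m e.1) (treeMem t)) y = true := hy
    rw [force_eq] at hy'
    refine ih (fun e' he' => hstep e' (List.mem_cons_of_mem _ he')) _ h2 ?_ y hy'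
    intro z hz
    rw [bit_setBit] at hz
    rcases hz with hz | rfl
    · exact hm z hz
    · exact hstep e List.mem_cons_self (hm _ h1)

/-- The image of a point of `1782` under a word, the last letter acting first. -/
noncomputable def evalS (u : List ℕ) : ℕ → ℕ :=
  List.rec (motive := fun _ => ℕ → ℕ) (fun x => x)
    (fun a _ ih x => force (ih x) fun y => Tc a y) u

/-- The labels of the orbits of the letters of `G₂(4)`. -/
noncomputable def lab3 (z : ℕ) : ℕ := app 2 3 lab3C z

/-- The labels of the orbits of the Sylow subgroup on `416` points. -/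
noncomputable def labU (p : ℕ) : ℕ := app 3 7 labUC p

/-- The labels of the orbits of the Sylow subgroup on `1782` points. -/
noncomputable def labV (z : ℕ) : ℕ := app 3 7 labVC z

/-- The code separating the vertices. -/
noncomputable def codeQ (z : ℕ) : ℕ :=
  List.rec 0 (fun p _ ih => force ih fun a => Nat.add (Nat.mul 2 a) (Bool.rec 0 1 (adjS (fp p) z))) Qp

theorem codeQ_congr {z z' : ℕ} (h : ∀ p ∈ Qp, adjS (fp p) z = adjS (fp p) z') : codeQ z = codeQ z' := by
  have key : ∀ l : List ℕ, (∀ p ∈ l, adjS (fp p) z = adjS (fp p) z') →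
      (List.rec 0 (fun p _ ih => force ih fun a => Nat.add (Nat.mul 2 a) (Bool.rec 0 1 (adjS (fp p) z))) l : ℕ) =
      List.rec 0 (fun p _ ih => force ih fun a => Nat.add (Nat.mul 2 a) (Bool.rec 0 1 (adjS (fp p) z'))) l := by
    intro l
    induction l with
    | nil => intro _; rfl
    | cons p t ih =>
      intro hl
      simp only []
      rw [force_eq, force_eq, ih (fun q hq => hl q (List.mem_cons_of_mem _ hq)), hl p List.mem_cons_self]
  exact key Qp h

end Cfsg.Agent.Lib.SuzRec.Basic
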