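import Cfsg.Agent.Lib.PermComp.Core

/-!
# Upper bounds for groups of graph automorphisms by colour refinement

A colouring is a packed table.  A subgroup of the automorphism group that preserves a colouring preserves every
refinement of it: the new colour of a vertex only depends on its old colour and on the number of its neighbours of each
colour.  Individualising a vertex costs the size of its cell.
-/

set_option autoImplicit false

namespace Cfsg.Agent.Lib.SuzRec.Chain

open Cfsg.Agent.Lib.PermComp.Core

/-- Permutations preserving an adjacency function. -/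
def AutA (n : ℕ) (row : ℕ → ℕ) : Subgroup (Equiv.Perm (Fin n)) where
  carrier := {g | ∀ x y : Fin n, bit (row (g x)) (g y) = bit (row x) y}
  one_mem' := fun _ _ => rfl
  mul_mem' := by
    intro a b ha hb x y
    exact (ha (b x) (b y)).trans (hb x y)
  inv_mem' := by
    intro a ha x y
    have := ha (a⁻¹ x) (a⁻¹ y)
    rw [show a (a⁻¹ x) = x by simp, show a (a⁻¹ y) = y by simp] at this
    exact this.symm

/-- Accumulating sum. -/
noncomputable def sumAux (f : ℕ → ℕ) (k acc : ℕ) : ℕ :=
  Nat.rec (motive := fun _ => ℕ → ℕ) (fun acc => acc)
    (fun i ih acc => force (Nat.add acc (f i)) ih) k acc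

theorem sumAux_eq (f : ℕ → ℕ) (k acc : ℕ) : sumAux f k acc = acc + ∑ i ∈ Finset.range k, f i := by
  induction k generalizing acc with
  | zero => simp [sumAux]
  | succ k ih =>
    show force (Nat.add acc (f k)) (sumAux f k) = _
    rw [force_eq, ih, Finset.sum_range_succ]
    show acc + f k + _ = _
    omega

/-- The list of the values of a function, computed eagerly. -/
noncomputable def buildL {β : Type} (g : ℕ → ℕ) (k : ℕ) (K : List ℕ → β) : β :=
  Nat.rec (motive := fun _ => List ℕ → β) K
    (fun i ih acc => force (g i) fun v => ih (v :: acc)) k []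

theorem buildL_aux {β : Type} (g : ℕ → ℕ) (K : List ℕ → β) (k : ℕ) (acc : List ℕ) :
    (Nat.rec (motive := fun _ => List ℕ → β) K
      (fun i ih acc => force (g i) fun v => ih (v :: acc)) k acc : β) = K ((List.range k).map g ++ acc) := by
  induction k generalizing acc with
  | zero => rfl
  | succ k ih =>
    show force (g k) (fun v => _) = _
    rw [force_eq, ih, List.range_succ]
    simp

theorem buildL_eq {β : Type} (g : ℕ → ℕ) (k : ℕ) (K : List ℕ → β) :
    buildL g k K = K ((List.range k).map g) := by
  rw [buildL, buildL_aux, List.append_nil]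

/-- Compare a value with the rest of a list. -/
noncomputable def chkTail (c' : ℕ → ℕ) (a ca : ℕ) (t : List ℕ) : ℕ → Bool :=
  List.rec (motive := fun _ => ℕ → Bool) (fun _ => true)
    (fun b _ ih j => Bool.rec (ih (Nat.succ j)) (ifB (Nat.beq ca (c' j)) (ih (Nat.succ j))) (Nat.beq a b)) t

/-- Equal values in the list have the same new colour. -/
noncomputable def allPairs (c' : ℕ → ℕ) (L : List ℕ) : ℕ → Bool :=
  List.rec (motive := fun _ => ℕ → Bool) (fun _ => true)
    (fun a t ih i => ifB (chkTail c' a (c' i) t (Nat.succ i)) (ih (Nat.succ i))) L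

theorem chkTail_spec {c' : ℕ → ℕ} {a ca : ℕ} (t : List ℕ) (j : ℕ) (h : chkTail c' a ca t j = true) :
    ∀ k (hk : k < t.length), t[k] = a → c' (j + k) = ca := by
  induction t generalizing j with
  | nil =>
    intro k hk
    exact absurd hk (by simp)
  | cons b t ih =>
    intro k hk hb
    have h' : Bool.rec (chkTail c' a ca t (Nat.succ j))
        (ifB (Nat.beq ca (c' j)) (chkTail c' a ca t (Nat.succ j))) (Nat.beq a b) = true := h
    cases k with
    | zero =>
      simp only [List.getElem_cons_zero] at hb
      subst hb
      have : Nat.beq b b = true := Nat.beq_refl _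
      rw [this] at h'
      have h2 := (ifB_eq_true _ _).1 h'
      exact (Nat.eq_of_beq_eq_true h2.1).symm
    | succ k =>
      have hb' : t[k]'(by simpa using hk) = a := by simpa using hb
      have htail : chkTail c' a ca t (Nat.succ j) = true := by
        cases hbe : Nat.beq a b with
        | false =>
          rw [hbe] at h'
          exact h'
        | true =>
          rw [hbe] at h'
          exact ((ifB_eq_true _ _).1 h').2
      have := ih (Nat.succ j) htail k (by simpa using hk) hb'
      rw [← this]
      congr 1
      omega

theorem allPairs_spec {c' : ℕ → ℕ} (L : List ℕ) (i : ℕ) (h : allPairs c' L i = true) :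
    ∀ (k l : ℕ) (hk : k < L.length) (hl : l < L.length), k < l → L[k] = L[l] → c' (i + k) = c' (i + l) := by
  induction L generalizing i with
  | nil =>
    intro k l hk
    exact absurd hk (by simp)
  | cons a t ih =>
    intro k l hk hl hkl heq
    have h' : ifB (chkTail c' a (c' i) t (Nat.succ i)) (allPairs c' t (Nat.succ i)) = true := h
    obtain ⟨h1, h2⟩ := (ifB_eq_true _ _).1 h'
    cases l with
    | zero => omega
    | succ l =>
      cases k with
      | zero =>
        have hl' : l < t.length := by simpa using hl
        have := chkTail_spec t _ h1 l hl' (by simpa using heq.symm)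
        rw [show i + (l + 1) = Nat.succ i + l by omega, this]
        rfl
      | succ k =>
        have := ih (Nat.succ i) h2 k l (by simpa using hk) (by simpa using hl) (by omega)
          (by simpa using heq)
        rw [show i + (k + 1) = Nat.succ i + k by omega, show i + (l + 1) = Nat.succ i + l by omega]
        exact this

theorem allPairs_map {c' g : ℕ → ℕ} {n : ℕ} (h : allPairs c' ((List.range n).map g) 0 = true)
    {x y : ℕ} (hx : x < n) (hy : y < n) (hxy : g x = g y) : c' x = c' y := by
  have key := allPairs_spec _ 0 h
  rcases lt_trichotomy x y with hlt | heq | hlt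
  · have := key x y (by simpa using hx) (by simpa using hy) hlt (by simpa using hxy)
    simpa using this
  · rw [heq]
  · have := key y x (by simpa using hy) (by simpa using hx) hlt (by simpa using hxy.symm)
    simpa using this.symm

section Main

variable (n w mask s : ℕ) (row : ℕ → ℕ)

/-- The colour of a vertex. -/
def col (c x : ℕ) : ℕ := app w mask c x

/-- The weight of a neighbour. -/
noncomputable def wt (c r y : ℕ) : ℕ := Bool.rec 0 (Nat.shiftLeft 1 (Nat.mul s (app w mask c y))) (bit r y)

/-- The invariant of a vertex after individualising `v`. -/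
noncomputable def pr (M c v x : ℕ) : ℕ :=
  force (row x) fun r =>
    Nat.add (Nat.shiftLeft (Nat.add (Nat.mul 2 (app w mask c x)) (Bool.rec 0 1 (Nat.beq x v))) M)
      (sumAux (wt w mask s c r) n 0)

/-- A step of refinement. -/
noncomputable def stepOK (M c v c' : ℕ) : Bool :=
  buildL (pr n w mask s row M c v) n fun L => allPairs (app w mask c') L 0

/-- The number of vertices with the same colour as `v`. -/
noncomputable def cell (c v : ℕ) : ℕ :=
  force (app w mask c v) fun a =>
    sumAux (fun x => Bool.rec 0 1 (Nat.beq (app w mask c x) a)) n 0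

/-- All the steps, and the colouring is discrete at the end. -/
noncomputable def chainOK (M : ℕ) (steps : List (ℕ × ℕ)) : ℕ → Bool :=
  List.rec (motive := fun _ => ℕ → Bool)
    (fun c => buildL (app w mask c) n fun L => allPairs (fun x => x) L 0)
    (fun e _ ih c => ifB (stepOK n w mask s row M c e.1 e.2) (ih e.2)) steps

/-- The bound. -/
noncomputable def bd (steps : List (ℕ × ℕ)) : ℕ → ℕ :=
  List.rec (motive := fun _ => ℕ → ℕ) (fun _ => 1)
    (fun e _ ih c => Bool.rec (ih e.2) (Nat.mul (cell n w mask c e.1) (ih e.2)) (Nat.blt e.1 n)) steps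

end Main

variable {n w mask s : ℕ} {row : ℕ → ℕ}

theorem cell_eq (c v : ℕ) :
    cell n w mask c v = ((Finset.range n).filter fun x => app w mask c x = app w mask c v).card := by
  rw [cell, force_eq, sumAux_eq, zero_add, Finset.card_filter]
  apply Finset.sum_congr rfl
  intro x _
  by_cases h : app w mask c x = app w mask c v
  · rw [if_pos h, h]
    have : Nat.beq (app w mask c v) (app w mask c v) = true := Nat.beq_refl _
    simp only [this]
  · rw [if_neg h]
    have : Nat.beq (app w mask c x) (app w mask c v) = false := by
      cases hb : Nat.beq (app w mask c x) (app w mask c v) with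
      | false => rfl
      | true => exact absurd (Nat.eq_of_beq_eq_true hb) h
    simp only [this]

/-- The number of neighbours of each colour is invariant. -/
theorem sum_inv {c : ℕ} {g : Equiv.Perm (Fin n)} (hg : g ∈ AutA n row)
    (hc : ∀ x : Fin n, app w mask c (g x) = app w mask c x) (x : Fin n) :
    sumAux (wt w mask s c (row (g x))) n 0 = sumAux (wt w mask s c (row x)) n 0 := by
  rw [sumAux_eq, sumAux_eq, zero_add, zero_add, ← Fin.sum_univ_eq_sum_range, ← Fin.sum_univ_eq_sum_range,
    ← Equiv.sum_comp g]
  apply Finset.sum_congr rfl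
  intro y _
  have h1 : bit (row (g x)) (g y) = bit (row x) y := hg x y
  show (Bool.rec 0 (Nat.shiftLeft 1 (Nat.mul s (app w mask c (g y)))) (bit (row (g x)) (g y)) : ℕ) =
    Bool.rec 0 (Nat.shiftLeft 1 (Nat.mul s (app w mask c y))) (bit (row x) y)
  rw [h1, hc y]

/-- A step of refinement preserves the invariance. -/
theorem step_inv {M c v c' : ℕ} (h : stepOK n w mask s row M c v c' = true)
    {g : Equiv.Perm (Fin n)} (hg : g ∈ AutA n row)
    (hc : ∀ x : Fin n, app w mask c (g x) = app w mask c x)
    (hv : ∀ x : Fin n, ((g x : ℕ) = v) ↔ ((x : ℕ) = v)) (x : Fin n) :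
    app w mask c' (g x) = app w mask c' x := by
  rw [stepOK, buildL_eq] at h
  refine allPairs_map h (g x).2 x.2 ?_
  rw [pr, pr, force_eq, force_eq, sum_inv hg hc x, hc x]
  have : Nat.beq (g x : ℕ) v = Nat.beq (x : ℕ) v := by
    cases h1 : Nat.beq (x : ℕ) v with
    | true =>
      rw [(hv x).2 (Nat.eq_of_beq_eq_true h1), Nat.beq_refl]
    | false =>
      cases h2 : Nat.beq (g x : ℕ) v with
      | false => rfl
      | true =>
        have := (hv x).1 (Nat.eq_of_beq_eq_true h2)
        rw [this, Nat.beq_refl] at h1
        exact Bool.noConfusion h1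
  rw [this]

theorem card_le_of_stab (S : Subgroup (Equiv.Perm (Fin n))) (v : Fin n) (a : Fin n → ℕ)
    (ha : ∀ g ∈ S, ∀ x, a (g x) = a x) :
    Nat.card S ≤ ((Finset.univ.filter fun x => a x = a v).card) *
      Nat.card (S ⊓ MulAction.stabilizer (Equiv.Perm (Fin n)) v : Subgroup _) := by
  classical
  have h1 := (MulAction.stabilizer S v).card_mul_index
  rw [MulAction.index_stabilizer] at h1
  have h2 : Nat.card (MulAction.stabilizer S v) =
      Nat.card (S ⊓ MulAction.stabilizer (Equiv.Perm (Fin n)) v : Subgroup _) := by
    apply Nat.card_congr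
    refine ⟨fun x => ⟨x.1.1, x.1.2, x.2⟩, fun x => ⟨⟨x.1, x.2.1⟩, x.2.2⟩, fun x => rfl, fun x => rfl⟩
  have h3 : (MulAction.orbit S v).ncard ≤ (Finset.univ.filter fun x => a x = a v).card := by
    rw [← Set.ncard_coe_finset]
    apply Set.ncard_le_ncard _ (Finset.finite_toSet _)
    rintro _ ⟨g, rfl⟩
    simp only [Finset.coe_filter, Finset.mem_univ, true_and, Set.mem_ofPred_eq]
    exact ha g.1 g.2 v
  rw [← h1, h2, mul_comm]
  exact Nat.mul_le_mul_right _ h3

theorem range_filter_card (c v : ℕ) (hv : v < n) :
    ((Finset.range n).filter fun x => app w mask c x = app w mask c v).card =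
      (Finset.univ.filter fun x : Fin n => app w mask c x = app w mask c (⟨v, hv⟩ : Fin n)).card := by
  symm
  apply Finset.card_bij (fun (x : Fin n) _ => (x : ℕ))
  · intro x hx
    simp only [Finset.mem_filter, Finset.mem_univ, true_and] at hx
    simp only [Finset.mem_filter, Finset.mem_range]
    exact ⟨x.2, hx⟩
  · intro x _ y _ h
    exact Fin.ext h
  · intro x hx
    simp only [Finset.mem_filter, Finset.mem_range] at hx
    exact ⟨⟨x, hx.1⟩, by simpa using hx.2, rfl⟩

/-- **The bound.**  A group of automorphisms preserving the initial colouring has at most `bd` elements. -/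
theorem chain_bound (M : ℕ) (steps : List (ℕ × ℕ)) (c : ℕ) (S : Subgroup (Equiv.Perm (Fin n)))
    (hS : S ≤ AutA n row) (hc : ∀ g ∈ S, ∀ x : Fin n, app w mask c (g x) = app w mask c x)
    (h : chainOK n w mask s row M steps c = true) : Nat.card S ≤ bd n w mask steps c := by
  induction steps generalizing c S with
  | nil =>
    have h' : buildL (app w mask c) n (fun L => allPairs (fun x => x) L 0) = true := h
    rw [buildL_eq] at h'
    have hdis : ∀ x y : Fin n, app w mask c x = app w mask c y → x = y := fun x y hxy =>
      Fin.ext (allPairs_map h' x.2 y.2 hxy)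
    have hb : S = ⊥ := by
      rw [eq_bot_iff]
      intro g hg
      rw [Subgroup.mem_bot]
      ext x
      rw [hdis (g x) x (hc g hg x)]
      rfl
    rw [hb]
    simp [bd]
  | cons e t ih =>
    obtain ⟨v, c'⟩ := e
    have h' : ifB (stepOK n w mask s row M c v c') (chainOK n w mask s row M t c') = true := h
    obtain ⟨h1, h2⟩ := (ifB_eq_true _ _).1 h'
    have hbd : bd n w mask ((v, c') :: t) c = Bool.rec (bd n w mask t c')
        (Nat.mul (cell n w mask c v) (bd n w mask t c')) (Nat.blt v n) := rfl
    rw [hbd]
    cases hv : Nat.blt v n with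
    | false =>
      have hvn : ¬ v < n := by
        intro hlt
        have : Nat.blt v n = true := by
          show Nat.ble (v + 1) n = true
          exact Nat.ble_eq_true_of_le hlt
        rw [this] at hv
        exact Bool.noConfusion hv
      refine ih c' S hS ?_ h2
      intro g hg x
      refine step_inv h1 (hS hg) (hc g hg) ?_ x
      intro y
      constructor
      · intro hy
        exact absurd (hy ▸ (g y).2) hvn
      · intro hy
        exact absurd (hy ▸ y.2) hvn
    | true =>
      have hvn : v < n := Nat.le_of_ble_eq_true hv
      let v' : Fin n := ⟨v, hvn⟩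
      let S' : Subgroup (Equiv.Perm (Fin n)) := S ⊓ MulAction.stabilizer (Equiv.Perm (Fin n)) v'
      have h3 := card_le_of_stab S v' (fun x => app w mask c x) (fun g hg x => hc g hg x)
      have h4 : Nat.card S' ≤ bd n w mask t c' := by
        refine ih c' S' (inf_le_left.trans hS) ?_ h2
        intro g hg x
        refine step_inv h1 (hS hg.1) (hc g hg.1) ?_ x
        intro y
        have hgv : g v' = v' := hg.2
        constructor
        · intro hy
          have : g y = g v' := by
            rw [hgv]
            exact Fin.ext hy
          have := g.injective this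
          rw [this]
        · intro hy
          have : y = v' := Fin.ext hy
          rw [this, hgv]
      show Nat.card S ≤ cell n w mask c v * bd n w mask t c'
      rw [cell_eq, range_filter_card c v hvn]
      exact h3.trans (Nat.mul_le_mul_left _ h4)

end Cfsg.Agent.Lib.SuzRec.Chain
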