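import Cfsg.Agent.Lib.SuzRec.Basic

/-!
# Kernel checks on the graph of the Suzuki group
-/

set_option maxRecDepth 100000

namespace Cfsg.Agent.Lib.SuzRec.Checks

open Cfsg.Agent.Lib.PermComp.Core Cfsg.Agent.Lib.FusionSimple2.Codes
open Cfsg.Agent.Lib.TC.Enc Cfsg.Agent.Lib.SuzRec.Chain Cfsg.Agent.Lib.SuzRec.Data Cfsg.Agent.Lib.SuzRec.Data2 Cfsg.Agent.Lib.SuzRec.Data3
  Cfsg.Agent.Lib.SuzRec.Det Cfsg.Agent.Lib.SuzRec.ChainData Cfsg.Agent.Lib.SuzRec.Basic
open Cfsg.Agent.Lib.G24J2 (T6 evalW maskL lettersOK lab0 nthW)

/-- Equality of booleans. -/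
noncomputable def bEq (a b : Bool) : Bool := Bool.rec (Bool.rec true false b) (Bool.rec false true b) a

theorem bEq_iff {a b : Bool} (h : bEq a b = true) : a = b := by
  cases a <;> cases b <;> first | rfl | exact Bool.noConfusion h

/-- The letters. -/
theorem tc_ok : allN (fun c => allN (fun p => Nat.beq (Cfsg.Agent.Lib.TC.D.SuzG24.Tab.pt.T c p) (Tc c p)) 1782) 7 = true := by
  decide +kernel

theorem f_lt : allN (fun p => Nat.blt (fp p) 1782) 416 = true := by decide +kernel

theorem f_inj : buildL fp 416 (fun L => allPairs (fun x => x) L 0) = true := by decide +kernel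

theorem f_eq : allN (fun c => allN (fun p => Nat.beq (fp (ap c p)) (Tc c (fp p))) 416) 6 = true := by decide +kernel

theorem allM_ok : allN (fun y => bit allM y) 416 = true := by decide +kernel

/-- The neighbours of `0` separate the vertices. -/
theorem sep_ok : buildL codeQ 1782 (fun L => allPairs (fun x => x) L 0) = true := by decide +kernel

theorem qp_ok : allL (fun p => Nat.blt p 416) Qp = true := by decide +kernel

/-- The roots of the orbits. -/
def R3 : List ℕ := [0, 995, 2]

theorem tree_par : parOK treeO (maskL R3) = true := by decide +kernel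

theorem tree_ent : allL (fun e : ℕ × ℕ × ℕ => ifB (Nat.blt e.2.1 6) (ifB (Nat.beq e.1 (Tc e.2.1 e.2.2))
    (Nat.beq (lab3 e.1) (lab3 e.2.2)))) treeO = true := by decide +kernel

theorem tree_cov : force (treeMem treeO (maskL R3)) (fun M => allN (bit M) 1782) = true := by decide +kernel

theorem f_lab : allN (fun p => Nat.beq (lab3 (fp p)) 1) 416 = true := by decide +kernel

theorem base_vals : ifB (Nat.beq (lab3 0) 0) (ifB (Nat.beq (lab3 995) 1) (ifB (Nat.beq (lab3 2) 2)
    (Nat.beq (fp 0) 995))) = true := by decide +kernel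

/-- The inverse of the map to the neighbours of `0`. -/
theorem finv_ok : allN (fun z => orC (neB (lab3 z) 1) (ifB (Nat.blt (app 9 511 fI z) 416)
    (Nat.beq (fp (app 9 511 fI z)) z))) 1782 = true := by decide +kernel

theorem lab3_zero : allN (fun z => orC (neB (lab3 z) 0) (Nat.beq z 0)) 1782 = true := by decide +kernel

theorem lab3_lt : allN (fun z => Nat.blt (lab3 z) 3) 1782 = true := by decide +kernel

theorem sg2 : allN (fun p => bEq (adjS 2 (fp p)) (Nat.blt (labU p) 3)) 416 = true := by decide +kernel

theorem sg1 : allN (fun p => bEq (adjS 995 (fp p)) (Nat.beq (lab0 p) 2)) 416 = true := by decide +kernel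

/-- The letters of `G₂(4)` fix the vertex `0`. -/
theorem letters0 : allN (fun c => Nat.beq (Tc c 0) 0) 6 = true := by decide +kernel

/-- A word exchanges the first two roots. -/
theorem swap_ok : ifB (allL (fun a => Nat.blt a 7) swapW) (ifB (Nat.beq (evalS swapW 0) 995)
    (Nat.beq (evalS swapW 995) 0)) = true := by decide +kernel

/-- The row of a vertex is the image of the neighbours of `0` under a word moving `0` to the vertex. -/
noncomputable def rowOK (e : ℕ × List ℕ) : Bool :=
  ifB (allL (fun a => Nat.blt a 7) e.2) (ifB (Nat.beq (evalS e.2 0) e.1)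
    (buildL (fun p => evalS e.2 (fp p)) 416 (fun L => Nat.beq (maskL L) (rowS e.1))))

theorem row_ok : allL rowOK rowW = true := by decide +kernel

theorem row_995 : anyL (fun e : ℕ × List ℕ => Nat.beq e.1 995) rowW = true := by decide +kernel

theorem row_2 : anyL (fun e : ℕ × List ℕ => Nat.beq e.1 2) rowW = true := by decide +kernel

theorem row_Qp : allL (fun p => anyL (fun e : ℕ × List ℕ => Nat.beq e.1 (fp p)) rowW) Qp = true := by decide +kernel

/-- The first row of the graph on `416` vertices. -/
theorem rowB_root : allN (fun q => bEq (bit (rowB 0) q) (bit (rowS 995) (fp q))) 416 = true := by decide +kernel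

/-- The letters of `G₂(4)` preserve the rows of the graph on `416` vertices along a spanning tree. -/
theorem rowB_tree : allL (fun e : ℕ × ℕ × ℕ => orC (neB (lab3 e.1) 1)
    (force (app 9 511 fI e.2.2) fun p => force (rowB p) fun r => force (rowB (ap e.2.1 p)) fun r' =>
      allN (fun q => bEq (bit r' (ap e.2.1 q)) (bit r q)) 416)) treeO = true := by decide +kernel

/-- The neighbours of the third root among the vertices far from `0`. -/
theorem adjV : allN (fun z => orC (neB (lab3 z) 2) (bEq (adjS 2 z) (orC (Nat.beq (labV z) 3) (Nat.beq (labV z) 4)))) 1782 = true := by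
  decide +kernel

theorem labV_iff : allN (fun z => bEq (Nat.blt (labV z) 6) (Nat.beq (lab3 z) 2)) 1782 = true := by decide +kernel

theorem labV_zero : allN (fun z => orC (neB (labV z) 0) (Nat.beq z 2)) 1782 = true := by decide +kernel

theorem labU_lt : allN (fun p => Nat.blt (labU p) 5) 416 = true := by decide +kernel

theorem u_len : ifB (Nat.beq uW.length 4) (ifB (Nat.beq uC.length 4) (Nat.beq uS.length 4)) = true := by decide +kernel

theorem u_letters : allL lettersOK uW = true := by decide +kernel

theorem u416 : allN (fun k => allN (fun p => Nat.beq (evalW (nthW uW k) p) (app 9 511 (nthN uC k) p)) 416) 4 = true := by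
  decide +kernel

theorem u1782 : allN (fun k => allN (fun z => Nat.beq (evalS (nthW uW k) z) (app 11 2047 (nthN uS k) z)) 1782) 4 = true := by
  decide +kernel

theorem treeU_par : parOK treeU (maskL rootsU) = true := by decide +kernel

theorem treeU_ent : allL (fun e : ℕ × ℕ × ℕ => ifB (Nat.blt e.2.1 4) (ifB (Nat.beq e.1 (app 9 511 (nthN uC e.2.1) e.2.2))
    (Nat.beq (labU e.1) (labU e.2.2)))) treeU = true := by decide +kernel

theorem treeU_root : allL (fun r => ifB (Nat.blt r 416) (Nat.beq (nthN rootsU (labU r)) r)) rootsU = true := by decide +kernel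

theorem treeU_cov : force (treeMem treeU (maskL rootsU)) (fun M => allN (bit M) 416) = true := by decide +kernel

theorem treeV_par : parOK treeV (maskL rootsV) = true := by decide +kernel

theorem treeV_ent : allL (fun e : ℕ × ℕ × ℕ => ifB (Nat.blt e.2.1 4) (ifB (Nat.beq e.1 (app 11 2047 (nthN uS e.2.1) e.2.2))
    (Nat.beq (labV e.1) (labV e.2.2)))) treeV = true := by decide +kernel

theorem treeV_root : allL (fun r => ifB (Nat.blt r 1782) (Nat.beq (nthN rootsV (labV r)) r)) rootsV = true := by decide +kernel

theorem treeV_cov : force (treeMem treeV (maskL rootsV))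
    (fun M => allN (fun z => orC (Nat.ble 6 (labV z)) (bit M z)) 1782) = true := by decide +kernel

theorem w_vals : ifB (allL (fun a => Nat.blt a 7) w1) (ifB (allL (fun a => Nat.blt a 7) w2)
    (ifB (Nat.beq (evalS w1 0) 995) (Nat.beq (evalS w2 0) 2))) = true := by decide +kernel

/-- The sizes of the orbits. -/
theorem szU : ∀ j < 5, (Finset.univ.filter fun p : Fin 416 => labU p = j).card = [32, 32, 32, 64, 256].getD j 0 := by
  decide +kernel

theorem szV : ∀ j < 6, (Finset.univ.filter fun p : Fin 1782 => labV p = j).card = [1, 4, 16, 64, 256, 1024].getD j 0 := by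
  decide +kernel

theorem numU : ∀ J ∈ (Finset.range 5).powerset, (∑ j ∈ J, [32, 32, 32, 64, 256].getD j 0) = 96 →
    J = {0, 1, 2} ∨ J = {0, 3} ∨ J = {1, 3} ∨ J = {2, 3} := by decide +kernel

theorem numV : ∀ J ∈ (Finset.range 6).powerset, 0 ∉ J → (∑ j ∈ J, [1, 4, 16, 64, 256, 1024].getD j 0) = 320 →
    J = {3, 4} := by decide +kernel

/-! ### The candidates -/

theorem cA_ok0 : allN (fun p => Nat.beq (app 9 511 cA0 p) (Bool.rec 0 1 (orC (Nat.beq (labU p) 0) (Nat.beq (labU p) 3)))) 416 = true := by decide +kernel
theorem cA_ok1 : allN (fun p => Nat.beq (app 9 511 cA1 p) (Bool.rec 0 1 (orC (Nat.beq (labU p) 1) (Nat.beq (labU p) 3)))) 416 = true := by decide +kernel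
theorem cA_ok2 : allN (fun p => Nat.beq (app 9 511 cA2 p) (Bool.rec 0 1 (orC (Nat.beq (labU p) 2) (Nat.beq (labU p) 3)))) 416 = true := by decide +kernel

/-- The cells are the classes of the colouring. -/
noncomputable def cellsOK (c : ℕ) (ms : List ℕ) : ℕ → Bool :=
  List.rec (motive := fun _ => ℕ → Bool) (fun _ => true)
    (fun m _ ih j => ifB (allN (fun y => bEq (bit m y) (Nat.beq (app 9 511 c y) j)) 416) (ih (Nat.succ j))) ms

theorem cells0 : cellsOK cB0 mC0 0 = true := by decide +kernel
theorem cells1 : cellsOK cB1 mC1 0 = true := by decide +kernel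
theorem cells2 : cellsOK cB2 mC2 0 = true := by decide +kernel

end Cfsg.Agent.Lib.SuzRec.Checks
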