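import Cfsg.Agent.Lib.SuzRec.Chain

/-!
# Upper bounds for groups of graph automorphisms by determination sequences

If a group of automorphisms of a graph fixes the vertices of `D`, then the image of a vertex `x` has the same adjacencies
to `D` as `x`.  A sequence of vertices with such sets of candidates gives an upper bound for the order of the group.
-/

set_option autoImplicit false

namespace Cfsg.Agent.Lib.SuzRec.Det

open Cfsg.Agent.Lib.PermComp.Core Cfsg.Agent.Lib.SuzRec.Chain

section Main

variable (n ALL : ℕ) (row : ℕ → ℕ)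

/-- The part of `ALL` on the side of the mask `m` containing `x`. -/
noncomputable def side (x m : ℕ) : ℕ := Bool.rec (Nat.xor m ALL) m (bit m x)

/-- Cut a mask with the sides of a list of masks. -/
noncomputable def cutM (x : ℕ) (ms : List ℕ) : ℕ → ℕ :=
  List.rec (motive := fun _ => ℕ → ℕ) (fun acc => acc)
    (fun m _ ih acc => force (Nat.land acc (side ALL x m)) ih) ms

/-- Cut a mask with the rows of a list of vertices. -/
noncomputable def cutV (x : ℕ) (w : List ℕ) : ℕ → ℕ :=
  List.rec (motive := fun _ => ℕ → ℕ) (fun acc => acc)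
    (fun d _ ih acc => force (Nat.land acc (side ALL x (row d))) ih) w

/-- The candidates for the image of `x`. -/
noncomputable def candX (inits : List ℕ) (x : ℕ) (w : List ℕ) (D : ℕ) : ℕ :=
  force (cutM ALL x inits (Nat.xor D ALL)) (cutV ALL row x w)

/-- The number of elements of a mask. -/
noncomputable def popc (c : ℕ) : ℕ := sumAux (fun y => Bool.rec 0 1 (bit c y)) n 0

/-- The cost of a set of candidates. -/
noncomputable def fac (c x : ℕ) : ℕ := Bool.rec (popc n c) 1 (Nat.beq c (Nat.shiftLeft 1 x))

/-- The sequence is legal. -/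
noncomputable def detOK : List (ℕ × List ℕ) → ℕ → Bool := fun st =>
  List.rec (motive := fun _ => ℕ → Bool) (fun D => Nat.beq D ALL)
    (fun e _ ih D => ifB (Nat.blt e.1 n) (ifB (!(bit D e.1)) (ifB (allL (bit D) e.2) (force (setBit D e.1) ih)))) st

/-- The bound. -/
noncomputable def detBd (inits : List ℕ) : List (ℕ × List ℕ) → ℕ → ℕ := fun st =>
  List.rec (motive := fun _ => ℕ → ℕ) (fun _ => 1)
    (fun e _ ih D => force (fac n (candX ALL row inits e.1 e.2 D) e.1) fun a =>
      force (setBit D e.1) fun D' => Nat.mul a (ih D')) st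

end Main

variable {n ALL : ℕ} {row : ℕ → ℕ}

theorem bit_land (a b y : ℕ) : bit (Nat.land a b) y = (bit a y && bit b y) := by
  rw [bit_eq_testBit, bit_eq_testBit, bit_eq_testBit]
  exact Nat.testBit_and a b y

theorem bit_xor (a b y : ℕ) : bit (Nat.xor a b) y = xor (bit a y) (bit b y) := by
  rw [bit_eq_testBit, bit_eq_testBit, bit_eq_testBit]
  exact Nat.testBit_xor a b y

theorem bit_side {x m y : ℕ} (hy : bit ALL y = true) :
    bit (side ALL x m) y = true ↔ bit m y = bit m x := by
  unfold side
  cases hx : bit m x with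
  | true =>
    simp only []
  | false =>
    simp only []
    rw [bit_xor, hy]
    cases bit m y <;> simp

theorem bit_cutM {x : ℕ} (ms : List ℕ) {acc y : ℕ} (hy : bit ALL y = true) :
    bit (cutM ALL x ms acc) y = true ↔ bit acc y = true ∧ ∀ m ∈ ms, bit m y = bit m x := by
  induction ms generalizing acc with
  | nil => simp [cutM]
  | cons m t ih =>
    show bit (force (Nat.land acc (side ALL x m)) (cutM ALL x t)) y = true ↔ _
    rw [force_eq, ih, bit_land, Bool.and_eq_true, bit_side hy]
    simp only [List.mem_cons, forall_eq_or_imp]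
    tauto

theorem bit_cutV {x : ℕ} (w : List ℕ) {acc y : ℕ} (hy : bit ALL y = true) :
    bit (cutV ALL row x w acc) y = true ↔ bit acc y = true ∧ ∀ d ∈ w, bit (row d) y = bit (row d) x := by
  induction w generalizing acc with
  | nil => simp [cutV]
  | cons m t ih =>
    show bit (force (Nat.land acc (side ALL x (row m))) (cutV ALL row x t)) y = true ↔ _
    rw [force_eq, ih, bit_land, Bool.and_eq_true, bit_side hy]
    simp only [List.mem_cons, forall_eq_or_imp]
    tauto

theorem bit_candX {inits : List ℕ} {x : ℕ} {w : List ℕ} {y D : ℕ} (hy : bit ALL y = true) :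
    bit (candX ALL row inits x w D) y = true ↔ bit D y = false ∧
      (∀ m ∈ inits, bit m y = bit m x) ∧ ∀ d ∈ w, bit (row d) y = bit (row d) x := by
  rw [candX, force_eq, bit_cutV w hy, bit_cutM inits hy, bit_xor, hy]
  cases bit D y <;> simp

theorem card_le_fac (c x : ℕ) :
    (Finset.univ.filter fun y : Fin n => bit c y = true).card ≤ fac n c x := by
  unfold fac
  cases h : Nat.beq c (Nat.shiftLeft 1 x) with
  | true =>
    have h1 : c = Nat.shiftLeft 1 x := Nat.eq_of_beq_eq_true h
    simp only []
    rw [Finset.card_le_one]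
    intro a ha b hb
    simp only [Finset.mem_filter, Finset.mem_univ, true_and] at ha hb
    rw [h1, bit_shift_one] at ha hb
    exact Fin.ext (ha.trans hb.symm)
  | false =>
    simp only []
    apply le_of_eq
    rw [popc, sumAux_eq, zero_add, ← Fin.sum_univ_eq_sum_range
      (fun y => (Bool.rec 0 1 (bit c y) : ℕ)), Finset.card_filter]
    apply Finset.sum_congr rfl
    intro y _
    cases bit c y <;> rfl

theorem card_le_of_orbit (S : Subgroup (Equiv.Perm (Fin n))) (v : Fin n) (A : Finset (Fin n))
    (hA : ∀ g ∈ S, g v ∈ A) :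
    Nat.card S ≤ A.card * Nat.card (S ⊓ MulAction.stabilizer (Equiv.Perm (Fin n)) v : Subgroup _) := by
  classical
  have h1 := (MulAction.stabilizer S v).card_mul_index
  rw [MulAction.index_stabilizer] at h1
  have h2 : Nat.card (MulAction.stabilizer S v) =
      Nat.card (S ⊓ MulAction.stabilizer (Equiv.Perm (Fin n)) v : Subgroup _) := by
    apply Nat.card_congr
    refine ⟨fun x => ⟨x.1.1, x.1.2, x.2⟩, fun x => ⟨⟨x.1, x.2.1⟩, x.2.2⟩, fun x => rfl, fun x => rfl⟩
  have h3 : (MulAction.orbit S v).ncard ≤ A.card := by
    rw [← Set.ncard_coe_finset]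
    apply Set.ncard_le_ncard _ (Finset.finite_toSet _)
    rintro _ ⟨g, rfl⟩
    exact hA g.1 g.2
  rw [← h1, h2, mul_comm]
  exact Nat.mul_le_mul_right _ h3

/-- **The bound.** -/
theorem det_bound (hALL : ∀ y < n, bit ALL y = true) (inits : List ℕ) (st : List (ℕ × List ℕ)) (D : ℕ)
    (S : Subgroup (Equiv.Perm (Fin n))) (hS : S ≤ AutA n row)
    (hinv : ∀ g ∈ S, ∀ m ∈ inits, ∀ y : Fin n, bit m (g y) = bit m y)
    (hD : ∀ g ∈ S, ∀ d (hd : d < n), bit D d = true → g ⟨d, hd⟩ = ⟨d, hd⟩)
    (hDr : ∀ d, bit D d = true → d < n)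
    (h : detOK n ALL st D = true) : Nat.card S ≤ detBd n ALL row inits st D := by
  induction st generalizing D S with
  | nil =>
    have h1 : D = ALL := Nat.eq_of_beq_eq_true h
    have hb : S = ⊥ := by
      rw [eq_bot_iff]
      intro g hg
      rw [Subgroup.mem_bot]
      ext y
      have := hD g hg y.1 y.2 (by rw [h1]; exact hALL y.1 y.2)
      rw [show (⟨y.1, y.2⟩ : Fin n) = y from rfl] at this
      rw [this]
      rfl
    rw [hb]
    simp [detBd]
  | cons e t ih =>
    obtain ⟨x, w⟩ := e
    have h' : ifB (Nat.blt x n) (ifB (!(bit D x)) (ifB (allL (bit D) w) (force (setBit D x) (detOK n ALL t)))) = true := h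
    obtain ⟨h1, h2⟩ := (ifB_eq_true _ _).1 h'
    obtain ⟨h2', h2⟩ := (ifB_eq_true _ _).1 h2
    obtain ⟨h3, h4⟩ := (ifB_eq_true _ _).1 h2
    rw [force_eq] at h4
    have hxD : bit D x = false := by simpa using h2'
    have hxn : x < n := Nat.le_of_ble_eq_true h1
    have hw : ∀ d ∈ w, bit D d = true := (allL_eq_true _ _).1 h3
    let x' : Fin n := ⟨x, hxn⟩
    let S' : Subgroup (Equiv.Perm (Fin n)) := S ⊓ MulAction.stabilizer (Equiv.Perm (Fin n)) x'
    have hbd : detBd n ALL row inits ((x, w) :: t) D =
        force (fac n (candX ALL row inits x w D) x) fun a =>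
          force (setBit D x) fun D' => Nat.mul a (detBd n ALL row inits t D') := rfl
    rw [hbd, force_eq, force_eq]
    have hA : ∀ g ∈ S, g x' ∈ (Finset.univ.filter fun y : Fin n => bit (candX ALL row inits x w D) y = true) := by
      intro g hg
      simp only [Finset.mem_filter, Finset.mem_univ, true_and]
      rw [bit_candX (hALL _ (g x').2)]
      refine ⟨?_, ?_, ?_⟩
      · cases hb : bit D (g x') with
        | false => rfl
        | true =>
          exfalso
          have h8 := hD g hg _ (g x').2 hb
          have h9 : g (g x') = g x' := h8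
          have h10 : g x' = x' := g.injective h9
          rw [h10] at hb
          rw [show ((x' : Fin n) : ℕ) = x from rfl, hxD] at hb
          exact Bool.noConfusion hb
      · intro m hm
        exact hinv g hg m hm x'
      · intro d hd
        have hdn : d < n := hDr d (hw d hd)
        have hgd := hD g hg d hdn (hw d hd)
        have h5 := (hS hg) ⟨d, hdn⟩ x'
        rw [hgd] at h5
        exact h5
    have h6 := card_le_of_orbit S x' _ hA
    have h7 : Nat.card S' ≤ detBd n ALL row inits t (setBit D x) := by
      refine ih (setBit D x) S' (inf_le_left.trans hS) (fun g hg => hinv g hg.1) ?_ ?_ h4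
      rotate_left
      · intro d hb
        rw [bit_setBit] at hb
        rcases hb with hb | rfl
        · exact hDr d hb
        · exact hxn
      intro g hg d hd hb
      rw [bit_setBit] at hb
      rcases hb with hb | rfl
      · exact hD g hg.1 d hd hb
      · exact hg.2
    show Nat.card S ≤ fac n (candX ALL row inits x w D) x * detBd n ALL row inits t (setBit D x)
    exact h6.trans (Nat.mul_le_mul (card_le_fac _ _) h7)

end Cfsg.Agent.Lib.SuzRec.Det
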