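import Cfsg.Agent.Lib.G24J2.Main
import Cfsg.Agent.Lib.TC.D.SuzChain.Main

/-!
# The groups `G₂(4)` and `Suz` as permutation groups, generated by their letters
-/

set_option autoImplicit false
set_option maxRecDepth 100000

namespace Cfsg.Agent.Lib.SuzRec.Models

open Cfsg.Agent.Lib.G24J2 Cfsg.Agent.Lib.PermComp.Core Cfsg.Agent.Lib.FusionSimple2.Codes

local notation "PP" => Equiv.Perm (Fin 416)
local notation "SS" => Equiv.Perm (Fin 1782)

open Cfsg.Agent.Lib.TC.D.SuzH.Ok Cfsg.Agent.Lib.TC.D.SuzH.Tgt Cfsg.Agent.Lib.TC.Pres in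
/-- The group `G₂(4)` as a permutation group of degree `416`, generated by its letters. -/
theorem exists_modelP : ∃ P : Subgroup PP, Model P ∧ Nonempty (PresentedGroup Rp ≃* P) ∧
    P = Subgroup.closure (Lt '' {c | c < 6}) := by
  obtain ⟨ψ, hψ⟩ := Cfsg.Agent.Lib.G24J2.exists_psi
  have hker : Function.Injective ψ := by
    rcases (Subgroup.Normal.eq_bot_or_eq_top (inferInstance : ψ.ker.Normal)) with h | h
    · exact (MonoidHom.ker_eq_bot_iff ψ).1 h
    · exfalso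
      have h2 : Kp.E Rp 5 ∈ ψ.ker := by
        rw [h]
        trivial
      rw [MonoidHom.mem_ker, hψ 5 (by decide)] at h2
      have h3 := rep_val (Lt_rep (c := 5) (by norm_num)) p0
      rw [h2] at h3
      have h4 : (0 : ℕ) = app 9 511 (nthN T6 5) 0 := h3
      have h5 := Nat.eq_of_beq_eq_true chk_t5
      have h6 : app 9 511 (nthN T6 5) 0 = app 9 511 tau5 0 := rfl
      rw [h6, h5] at h4
      exact absurd h4 (by norm_num)
  refine ⟨ψ.range, ⟨fun c hc => ⟨_, hψ c hc⟩, ?_⟩, ⟨MonoidHom.ofInjective hker⟩, ?_⟩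
  · rw [← Nat.card_congr (MonoidHom.ofInjective hker).toEquiv]
    exact Cfsg.Agent.Lib.TC.D.SuzH.Main.simple_card.2
  · rw [MonoidHom.range_eq_map, ← Cols.closure_E hv, MonoidHom.map_closure]
    congr 1
    ext x
    constructor
    · rintro ⟨_, ⟨c, hc, rfl⟩, rfl⟩
      exact ⟨c, hc, (hψ c hc).symm⟩
    · rintro ⟨c, hc, rfl⟩
      exact ⟨_, ⟨c, hc, rfl⟩, hψ c hc⟩

open Cfsg.Agent.Lib.TC.Core Cfsg.Agent.Lib.TC.Pres Cfsg.Agent.Lib.TC.Main Cfsg.Agent.Lib.TC.Perm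
  Cfsg.Agent.Lib.TC.G.Suz Cfsg.Agent.Lib.TC.D.SuzG24.Tab in
/-- The sporadic Suzuki group as a permutation group of degree `1782`, generated by its letters. -/
theorem exists_modelH : ∃ (H : Subgroup SS) (Tp : ℕ → SS), Nonempty (Cfsg.Spor.Suz ≃* H) ∧
    Nat.card H = 448345497600 ∧ IsSimpleGroup H ∧
    (∀ c < 7, ∀ x : Fin 1782, pt.T c x = (Tp c x : ℕ)) ∧ H = Subgroup.closure (Tp '' {c | c < 7}) := by
  have h := Cfsg.Agent.Lib.TC.D.SuzG24.Ok.ok
  obtain ⟨hs, hc⟩ := Cfsg.Agent.Lib.TC.D.SuzChain.Main.simple_card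
  obtain ⟨φ, hφ⟩ := h.exists_action
  have hinj : Function.Injective φ := by
    have h1 : φ.ker = ⊥ ∨ φ.ker = ⊤ := hs.eq_bot_or_eq_top_of_normal _ inferInstance
    rcases h1 with h1 | h1
    · exact (MonoidHom.ker_eq_bot_iff φ).1 h1
    · exfalso
      have h2 : K.E Rel 0 ∈ φ.ker := by
        rw [h1]
        exact Subgroup.mem_top _
      have h3 : φ (K.E Rel 0) = 1 := h2
      rw [hφ 0 (by decide)] at h3
      have hm : pt.T 0 2 ≠ 2 := by decide +kernel
      apply hm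
      have h4 := h.hG.EP_apply (c := 0) (by decide) ⟨2, by decide⟩
      rw [h3] at h4
      exact h4.symm
  have e0 : PresentedGroup Rel ≃* φ.range := MonoidHom.ofInjective hinj
  refine ⟨φ.range, h.hG.EP, ⟨e0⟩, ?_, ?_, ?_, ?_⟩
  · rw [← hc]
    exact Nat.card_congr e0.toEquiv.symm
  · exact e0.symm.isSimpleGroup
  · intro c hc' x
    exact (h.hG.EP_apply (c := c) (by rw [h.hPk]; exact hc') x).symm
  · rw [MonoidHom.range_eq_map, ← Cols.closure_E h.hK, MonoidHom.map_closure]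
    congr 1
    ext x
    constructor
    · rintro ⟨_, ⟨c, hc', rfl⟩, rfl⟩
      exact ⟨c, hc', (hφ c hc').symm⟩
    · rintro ⟨c, hc', rfl⟩
      exact ⟨_, ⟨c, hc', rfl⟩, hφ c hc'⟩

end Cfsg.Agent.Lib.SuzRec.Models
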