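import Cfsg.Agent.Lib.SuzRec.Checks
import Cfsg.Agent.Lib.SuzRec.Models

/-!
# The graph of the Suzuki group on `1782` vertices

The graph is the orbit of a pair of vertices under the group.  The group of automorphisms of the graph has order at most
twice the order of the group, and a subgroup of `G₂(4)` preserving a bad set of `96` neighbours is small.
-/

set_option autoImplicit false
set_option maxRecDepth 100000

namespace Cfsg.Agent.Lib.SuzRec.Graph

open MulAction
open Cfsg.Agent.Lib.PermComp.Core Cfsg.Agent.Lib.FusionSimple2.Codes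
open Cfsg.Agent.Lib.TC.Enc Cfsg.Agent.Lib.SuzRec.Chain Cfsg.Agent.Lib.SuzRec.Data Cfsg.Agent.Lib.SuzRec.Data2
  Cfsg.Agent.Lib.SuzRec.Data3
  Cfsg.Agent.Lib.SuzRec.Det Cfsg.Agent.Lib.SuzRec.ChainData Cfsg.Agent.Lib.SuzRec.Basic
  Cfsg.Agent.Lib.SuzRec.Checks
open Cfsg.Agent.Lib.G24J2

local notation "PP" => Equiv.Perm (Fin 416)
local notation "SS" => Equiv.Perm (Fin 1782)
local notation "RR" => Rep 9 511 (Equiv.refl (Fin 416))

/-- The data of the two groups. -/
structure Env where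
  P : Subgroup PP
  hP : Model P
  hPg : P = Subgroup.closure (Lt '' {c | c < 6})
  H : Subgroup SS
  Tp : ℕ → SS
  hT : ∀ c < 7, ∀ x : Fin 1782, (Tp c x : ℕ) = app 11 2047 (nthN TS c) x
  hH : H = Subgroup.closure (Tp '' {c | c < 7})
  hc : Nat.card H = 448345497600

theorem neB_ne {a b : ℕ} (h : neB a b = true) : a ≠ b := by
  rintro rfl
  rw [neB, Nat.beq_refl] at h
  exact Bool.noConfusion h

/-- Three vertices. -/
def z0 : Fin 1782 := ⟨0, by norm_num⟩
def z1 : Fin 1782 := ⟨995, by norm_num⟩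
def z2 : Fin 1782 := ⟨2, by norm_num⟩

/-- The roots of the orbits of `G₂(4)`. -/
def rt : ℕ → Fin 1782
  | 0 => z0
  | 1 => z1
  | _ => z2

/-- The graph is the orbit of a pair under the group. -/
def AdjT (E : Env) (x y : Fin 1782) : Prop := ∃ u ∈ E.H, u z0 = x ∧ u z1 = y

/-- The automorphism group of the graph. -/
def AS (E : Env) : Subgroup SS where
  carrier := {g | ∀ x y, AdjT E (g x) (g y) ↔ AdjT E x y}
  one_mem' := fun _ _ => Iff.rfl
  mul_mem' := by
    intro a b ha hb x y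
    exact (ha (b x) (b y)).trans (hb x y)
  inv_mem' := by
    intro a ha x y
    have := ha (a⁻¹ x) (a⁻¹ y)
    rw [show a (a⁻¹ x) = x by simp, show a (a⁻¹ y) = y by simp] at this
    exact this.symm

variable (E : Env)

theorem adjT_smul {u : SS} (hu : u ∈ E.H) (x y : Fin 1782) : AdjT E (u x) (u y) ↔ AdjT E x y := by
  constructor
  · rintro ⟨v, hv, h1, h2⟩
    refine ⟨u⁻¹ * v, mul_mem (inv_mem hu) hv, ?_, ?_⟩
    · rw [Equiv.Perm.mul_apply, h1]
      simp
    · rw [Equiv.Perm.mul_apply, h2]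
      simp
  · rintro ⟨v, hv, rfl, rfl⟩
    exact ⟨u * v, mul_mem hu hv, rfl, rfl⟩

theorem H_le : E.H ≤ AS E := fun _ hu x y => adjT_smul E hu x y

theorem Tp_memH {c : ℕ} (hc : c < 7) : E.Tp c ∈ E.H := by
  rw [E.hH]
  exact Subgroup.subset_closure ⟨c, hc, rfl⟩

theorem fp_lt (p : Fin 416) : fp p < 1782 := Nat.le_of_ble_eq_true (allN_spec f_lt p p.2)

/-- The map from the `416` points to the neighbours of `0`. -/
def fF (p : Fin 416) : Fin 1782 := ⟨fp p, fp_lt p⟩

theorem fF_inj : Function.Injective fF := by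
  intro p q h
  have hv : fp p = fp q := congrArg Fin.val h
  have h1 : allPairs (fun x => x) ((List.range 416).map fp) 0 = true := by
    have := f_inj
    rwa [buildL_eq] at this
  exact Fin.ext (allPairs_map h1 p.2 q.2 hv)

/-- An element of the group on `1782` points compatible with an element of the group on `416` points. -/
def IsLift (g : PP) (u : SS) : Prop := u ∈ E.H ∧ ∀ p, u (fF p) = fF (g p)

variable {E}

theorem lift_one : IsLift E 1 1 := ⟨one_mem _, fun _ => rfl⟩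

theorem lift_mul {g g' : PP} {u u' : SS} (h : IsLift E g u) (h' : IsLift E g' u') : IsLift E (g * g') (u * u') :=
  ⟨mul_mem h.1 h'.1, fun p => by
    simp only [Equiv.Perm.mul_apply]
    rw [h'.2, h.2]⟩

theorem lift_inv {g : PP} {u : SS} (h : IsLift E g u) : IsLift E g⁻¹ u⁻¹ :=
  ⟨inv_mem h.1, fun p => by
    rw [Equiv.Perm.inv_eq_iff_eq, h.2]
    simp⟩

variable (E)

theorem lift_letter {c : ℕ} (hc : c < 6) : IsLift E (Lt c) (E.Tp c) := by
  refine ⟨Tp_memH E (by omega), fun p => Fin.ext ?_⟩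
  show (E.Tp c (fF p) : ℕ) = fp (Lt c p)
  rw [E.hT c (by omega), rep_val (Lt_rep hc) p]
  exact (Nat.eq_of_beq_eq_true (allN_spec (allN_spec f_eq c hc) p p.2)).symm

/-- The subgroup generated by the letters of `G₂(4)`. -/
def LL : Subgroup SS := Subgroup.closure (E.Tp '' {c | c < 6})

theorem LL_le : LL E ≤ E.H := by
  apply (Subgroup.closure_le _).2
  rintro _ ⟨c, hc, rfl⟩
  exact Tp_memH E (Nat.lt_trans hc (by norm_num))

theorem LL_fix {u : SS} (hu : u ∈ LL E) : u z0 = z0 := by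
  have hle : LL E ≤ stabilizer SS z0 := by
    apply (Subgroup.closure_le _).2
    rintro _ ⟨c, hc, rfl⟩
    apply Fin.ext
    show ((E.Tp c z0 : Fin 1782) : ℕ) = 0
    rw [E.hT c (Nat.lt_trans hc (by norm_num))]
    exact Nat.eq_of_beq_eq_true (allN_spec letters0 c hc)
  exact hle hu

theorem exists_lift_LL {g : PP} (hg : g ∈ E.P) : ∃ u ∈ LL E, IsLift E g u := by
  have hg' := hg
  rw [E.hPg] at hg'
  induction hg' using Subgroup.closure_induction with
  | mem x hx =>
    obtain ⟨c, hc, rfl⟩ := hx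
    exact ⟨_, Subgroup.subset_closure ⟨c, hc, rfl⟩, lift_letter E hc⟩
  | one => exact ⟨1, one_mem _, lift_one⟩
  | mul x y hx hy h1 h2 =>
    have hx' : x ∈ E.P := by rw [E.hPg]; exact hx
    have hy' : y ∈ E.P := by rw [E.hPg]; exact hy
    obtain ⟨u, hu, hu'⟩ := h1 hx'
    obtain ⟨v, hv, hv'⟩ := h2 hy'
    exact ⟨_, mul_mem hu hv, lift_mul hu' hv'⟩
  | inv x hx h1 =>
    have hx' : x ∈ E.P := by rw [E.hPg]; exact hx
    obtain ⟨u, hu, hu'⟩ := h1 hx'
    exact ⟨_, inv_mem hu, lift_inv hu'⟩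

theorem exists_lift {g : PP} (hg : g ∈ E.P) : ∃ u, IsLift E g u :=
  (exists_lift_LL E hg).imp fun _ h => h.2

theorem LL_lift {u : SS} (hu : u ∈ LL E) : ∃ g ∈ E.P, IsLift E g u := by
  induction hu using Subgroup.closure_induction with
  | mem x hx =>
    obtain ⟨c, hc, rfl⟩ := hx
    exact ⟨_, E.hP.mem c hc, lift_letter E hc⟩
  | one => exact ⟨1, one_mem _, lift_one⟩
  | mul x y _ _ h1 h2 =>
    obtain ⟨g, hg, hg'⟩ := h1
    obtain ⟨g₂, hg₂, hg₂'⟩ := h2
    exact ⟨_, mul_mem hg hg₂, lift_mul hg' hg₂'⟩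
  | inv x _ h1 =>
    obtain ⟨g, hg, hg'⟩ := h1
    exact ⟨_, inv_mem hg, lift_inv hg'⟩

theorem card_LL : 251596800 ≤ Nat.card (LL E) := by
  have hex : ∀ g : E.P, ∃ u : LL E, IsLift E g.1 u.1 := by
    intro g
    obtain ⟨u, hu, h⟩ := exists_lift_LL E g.2
    exact ⟨⟨u, hu⟩, h⟩
  choose ρ hρ using hex
  have hinj : Function.Injective ρ := by
    intro g g' h
    apply Subtype.ext
    ext1 p
    apply fF_inj
    rw [← (hρ g).2, h, (hρ g').2]
  have := Nat.card_le_card_of_injective ρ hinj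
  rwa [E.hP.card] at this

/-- The generic form of the spanning forests. -/
theorem classes_gen {n : ℕ} {t : List (ℕ × ℕ × ℕ)} {rts : List ℕ} {lab : ℕ → ℕ} {Q : ℕ → Prop}
    (hpar : parOK t (maskL rts) = true)
    (hroot : ∀ r ∈ rts, r < n ∧ nthN rts (lab r) = r)
    (hstep : ∀ e ∈ t, e.2.2 < n → e.1 < n ∧ (Q e.1 ↔ Q e.2.2) ∧ lab e.1 = lab e.2.2) :
    ∀ y, bit (treeMem t (maskL rts)) y = true → y < n ∧ (Q y ↔ Q (nthN rts (lab y))) := by
  refine tree_reach (R := fun y => y < n ∧ (Q y ↔ Q (nthN rts (lab y)))) t ?_ _ hpar ?_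
  · rintro ⟨y, k, x⟩ he ⟨hx, hq⟩
    obtain ⟨h1, h2, h3⟩ := hstep _ he hx
    refine ⟨h1, ?_⟩
    simp only at h2 h3 ⊢
    rw [h3]
    exact h2.trans hq
  · intro y hy
    rw [bit_maskL] at hy
    obtain ⟨h1, h2⟩ := hroot y hy
    refine ⟨h1, ?_⟩
    rw [h2]

theorem lab3_lt (z : Fin 1782) : lab3 z < 3 := Nat.le_of_ble_eq_true (allN_spec Checks.lab3_lt z z.2)

theorem lab3_vals : lab3 0 = 0 ∧ lab3 995 = 1 ∧ lab3 2 = 2 ∧ fp 0 = 995 := by
  have h1 := (ifB_eq_true _ _).1 Checks.base_vals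
  have h2 := (ifB_eq_true _ _).1 h1.2
  have h3 := (ifB_eq_true _ _).1 h2.2
  exact ⟨Nat.eq_of_beq_eq_true h1.1, Nat.eq_of_beq_eq_true h2.1, Nat.eq_of_beq_eq_true h3.1,
    Nat.eq_of_beq_eq_true h3.2⟩

theorem fF_p0 : fF p0 = z1 := Fin.ext lab3_vals.2.2.2

/-- Every vertex is the image of a root under the group `G₂(4)`. -/
theorem reach (z : Fin 1782) : ∃ g ∈ E.P, ∃ u, IsLift E g u ∧ u (rt (lab3 z)) = z := by
  let R : ℕ → Prop := fun y => ∃ hy : y < 1782, ∃ g ∈ E.P, ∃ u, IsLift E g u ∧ u (rt (lab3 y)) = ⟨y, hy⟩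
  have hR : ∀ y, bit (treeMem treeO (maskL R3)) y = true → R y := by
    refine tree_reach treeO ?_ _ tree_par ?_
    · rintro ⟨y, c, x⟩ he ⟨hx, g, hg, u, hu, huz⟩
      obtain ⟨h1, h2⟩ := (ifB_eq_true _ _).1 ((allL_eq_true _ _).1 tree_ent _ he)
      obtain ⟨h3, h4⟩ := (ifB_eq_true _ _).1 h2
      have hc : c < 6 := Nat.le_of_ble_eq_true h1
      have hyx : y = Tc c x := Nat.eq_of_beq_eq_true h3
      have hl : lab3 y = lab3 x := Nat.eq_of_beq_eq_true h4
      have hv : (E.Tp c ⟨x, hx⟩ : ℕ) = y := by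
        rw [E.hT c (by omega), hyx]
        rfl
      have hy : y < 1782 := by
        rw [← hv]
        exact (E.Tp c ⟨x, hx⟩).2
      refine ⟨hy, Lt c * g, mul_mem (E.hP.mem c hc) hg, _, lift_mul (lift_letter E hc) hu, ?_⟩
      show E.Tp c (u (rt (lab3 y))) = _
      rw [hl, huz]
      exact Fin.ext hv
    · intro y hy
      rw [bit_maskL] at hy
      obtain ⟨v0, v1, v2, -⟩ := lab3_vals
      have hy' : y = 0 ∨ y = 995 ∨ y = 2 := by simpa [R3] using hy
      rcases hy' with rfl | rfl | rfl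
      · refine ⟨by norm_num, 1, one_mem _, 1, lift_one, ?_⟩
        rw [v0]
        rfl
      · refine ⟨by norm_num, 1, one_mem _, 1, lift_one, ?_⟩
        rw [v1]
        rfl
      · refine ⟨by norm_num, 1, one_mem _, 1, lift_one, ?_⟩
        rw [v2]
        rfl
  have hcov : allN (bit (treeMem treeO (maskL R3))) 1782 = true := by
    have := tree_cov
    rwa [force_eq] at this
  obtain ⟨hy, g, hg, u, hu, h⟩ := hR z (allN_spec hcov z z.2)
  exact ⟨g, hg, u, hu, h⟩

/-- Words in the letters are in the group. -/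
theorem word_H {u : List ℕ} (hu : ∀ a ∈ u, a < 7) : ∃ v ∈ E.H, ∀ x : Fin 1782, (v x : ℕ) = evalS u x := by
  induction u with
  | nil => exact ⟨1, one_mem _, fun x => rfl⟩
  | cons a t ih =>
    obtain ⟨v, hv, hv'⟩ := ih fun b hb => hu b (List.mem_cons_of_mem _ hb)
    have ha := hu a List.mem_cons_self
    refine ⟨E.Tp a * v, mul_mem (Tp_memH E ha) hv, fun x => ?_⟩
    show _ = force (evalS t x) fun y => Tc a y
    rw [force_eq, ← hv' x, Equiv.Perm.mul_apply]
    exact E.hT a ha _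

/-- The group is transitive. -/
theorem H_trans (z : Fin 1782) : ∃ v ∈ E.H, v z0 = z := by
  obtain ⟨g, hg, u, hu, he⟩ := reach E z
  have hw := (ifB_eq_true _ _).1 w_vals
  have hw2 := (ifB_eq_true _ _).1 hw.2
  have hw3 := (ifB_eq_true _ _).1 hw2.2
  have hr : ∃ v ∈ E.H, v z0 = rt (lab3 z) := by
    have hlt := lab3_lt z
    have hc : lab3 z = 0 ∨ lab3 z = 1 ∨ lab3 z = 2 := by omega
    rcases hc with h | h | h
    · rw [h]
      exact ⟨1, one_mem _, rfl⟩
    · rw [h]
      obtain ⟨v, hv, hv'⟩ := word_H E (u := w1) fun a ha =>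
        Nat.le_of_ble_eq_true ((allL_eq_true _ _).1 hw.1 a ha)
      refine ⟨v, hv, Fin.ext ?_⟩
      rw [hv']
      exact Nat.eq_of_beq_eq_true hw3.1
    · rw [h]
      obtain ⟨v, hv, hv'⟩ := word_H E (u := w2) fun a ha =>
        Nat.le_of_ble_eq_true ((allL_eq_true _ _).1 hw2.1 a ha)
      refine ⟨v, hv, Fin.ext ?_⟩
      rw [hv']
      exact Nat.eq_of_beq_eq_true hw3.2
  obtain ⟨v, hv, hvz⟩ := hr
  exact ⟨u * v, mul_mem hu.1 hv, by rw [Equiv.Perm.mul_apply, hvz, he]⟩

/-- The stabilizer of `0` in the group is generated by the letters of `G₂(4)`. -/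
theorem stab_LL {u : SS} (hu : u ∈ E.H) (h0 : u z0 = z0) : u ∈ LL E := by
  classical
  let S : Subgroup SS := E.H ⊓ stabilizer SS z0
  have hLS : LL E ≤ S := fun v hv => ⟨LL_le E hv, LL_fix E hv⟩
  have horb : orbit E.H z0 = Set.univ := Set.eq_univ_of_forall fun z => by
    obtain ⟨v, hv, he⟩ := H_trans E z
    exact ⟨⟨v, hv⟩, he⟩
  have h1 := (stabilizer E.H z0).card_mul_index
  rw [index_stabilizer, horb, Set.ncard_univ, Nat.card_fin, E.hc] at h1
  have h2 : Nat.card (stabilizer E.H z0) = Nat.card S :=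
    Nat.card_congr ⟨fun x => ⟨x.1.1, x.1.2, x.2⟩, fun x => ⟨⟨x.1, x.2.1⟩, x.2.2⟩, fun _ => rfl, fun _ => rfl⟩
  have hS : Nat.card S = 251596800 := by omega
  have heq : LL E = S := Subgroup.eq_of_le_of_card_ge hLS (by rw [hS]; exact card_LL E)
  rw [heq]
  exact ⟨hu, h0⟩

theorem lab3_fF (p : Fin 416) : lab3 (fF p) = 1 := Nat.eq_of_beq_eq_true (allN_spec f_lab p p.2)

/-- The neighbours of `0` are the points of the image. -/
theorem exists_fF {z : Fin 1782} (h : lab3 z = 1) : ∃ p, fF p = z := by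
  have h1 := allN_spec finv_ok z z.2
  rw [orC_eq_true] at h1
  rcases h1 with h1 | h1
  · exact absurd h (neB_ne h1)
  · obtain ⟨h2, h3⟩ := (ifB_eq_true _ _).1 h1
    exact ⟨⟨_, Nat.le_of_ble_eq_true h2⟩, Fin.ext (Nat.eq_of_beq_eq_true h3)⟩

/-- The neighbours of `0`. -/
theorem adjT_zero (z : Fin 1782) : AdjT E z0 z ↔ lab3 z = 1 := by
  constructor
  · rintro ⟨u, hu, h0, rfl⟩
    obtain ⟨g, -, hl⟩ := LL_lift E (stab_LL E hu h0)
    rw [← fF_p0, hl.2]
    exact lab3_fF _
  · intro h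
    obtain ⟨p, rfl⟩ := exists_fF h
    obtain ⟨g, hg, he⟩ := exists_trans E.hP p
    obtain ⟨u, hu, hl⟩ := exists_lift_LL E hg
    exact ⟨u, hl.1, LL_fix E hu, by rw [← fF_p0, hl.2, he]⟩

/-- The graph is undirected. -/
theorem adjT_symm (x y : Fin 1782) : AdjT E x y ↔ AdjT E y x := by
  have hs := (ifB_eq_true _ _).1 swap_ok
  have hs2 := (ifB_eq_true _ _).1 hs.2
  obtain ⟨w, hw, hv⟩ := word_H E (u := swapW) fun a ha =>
    Nat.le_of_ble_eq_true ((allL_eq_true _ _).1 hs.1 a ha)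
  have h0 : w z0 = z1 := Fin.ext (by
    rw [hv]
    exact Nat.eq_of_beq_eq_true hs2.1)
  have h1 : w z1 = z0 := Fin.ext (by
    rw [hv]
    exact Nat.eq_of_beq_eq_true hs2.2)
  have key : ∀ x y, AdjT E x y → AdjT E y x := by
    rintro _ _ ⟨u, hu, rfl, rfl⟩
    exact ⟨u * w, mul_mem hu hw, by rw [Equiv.Perm.mul_apply, h0], by rw [Equiv.Perm.mul_apply, h1]⟩
  exact ⟨key x y, key y x⟩

/-- The rows in the table. -/
theorem row_good {z : ℕ} (hz : anyL (fun e : ℕ × List ℕ => Nat.beq e.1 z) rowW = true) :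
    ∃ hz' : z < 1782, ∀ y : Fin 1782, AdjT E ⟨z, hz'⟩ y ↔ bit (rowS z) y = true := by
  rw [anyL_eq_true] at hz
  obtain ⟨e, he, hez⟩ := hz
  have hzz : e.1 = z := Nat.eq_of_beq_eq_true hez
  subst hzz
  have h := (allL_eq_true _ _).1 row_ok e he
  obtain ⟨h1, h2⟩ := (ifB_eq_true _ _).1 h
  obtain ⟨h3, h4⟩ := (ifB_eq_true _ _).1 h2
  rw [buildL_eq] at h4
  have hmask : maskL ((List.range 416).map fun p => evalS e.2 (fp p)) = rowS e.1 := Nat.eq_of_beq_eq_true h4
  obtain ⟨v, hv, hval⟩ := word_H E (u := e.2) fun a ha => Nat.le_of_ble_eq_true ((allL_eq_true _ _).1 h1 a ha)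
  have hv0 : (v z0 : ℕ) = e.1 := by
    rw [hval]
    exact Nat.eq_of_beq_eq_true h3
  have hlt : e.1 < 1782 := by
    rw [← hv0]
    exact (v z0).2
  refine ⟨hlt, fun y => ?_⟩
  have hvz : (⟨e.1, hlt⟩ : Fin 1782) = v z0 := Fin.ext hv0.symm
  rw [hvz, ← hmask, bit_maskL]
  have h5 : AdjT E (v z0) y ↔ AdjT E z0 (v⁻¹ y) := by
    have := adjT_smul E hv z0 (v⁻¹ y)
    rwa [show v (v⁻¹ y) = y by simp] at this
  rw [h5, adjT_zero]
  simp only [List.mem_map, List.mem_range]
  constructor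
  · intro h6
    obtain ⟨p, hp⟩ := exists_fF h6
    refine ⟨p, p.2, ?_⟩
    have h7 : (v (fF p) : ℕ) = evalS e.2 (fp p) := hval _
    rw [← h7, hp]
    simp
  · rintro ⟨p, hp, he'⟩
    have h7 : (v (fF ⟨p, hp⟩) : ℕ) = evalS e.2 (fp p) := hval _
    have h8 : v (fF ⟨p, hp⟩) = y := Fin.ext (h7.trans he')
    rw [← h8, show v⁻¹ (v (fF ⟨p, hp⟩)) = fF ⟨p, hp⟩ by simp]
    exact lab3_fF _

theorem adjT_z1 (y : Fin 1782) : AdjT E z1 y ↔ bit (rowS 995) y = true := by
  obtain ⟨_, h⟩ := row_good E row_995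
  exact h y

theorem adjT_z2 (y : Fin 1782) : AdjT E z2 y ↔ bit (rowS 2) y = true := by
  obtain ⟨_, h⟩ := row_good E row_2
  exact h y

/-- The rows of the graph on `416` vertices. -/
theorem adjT_f (p q : Fin 416) : AdjT E (fF p) (fF q) ↔ bit (rowB p) q = true := by
  let R : ℕ → Prop := fun y => y < 1782 ∧ ∀ p : Fin 416, fp p = y → ∀ q : Fin 416,
    (AdjT E (fF p) (fF q) ↔ bit (rowB p) q = true)
  have hR : ∀ y, bit (treeMem treeO (maskL R3)) y = true → R y := by
    refine tree_reach treeO ?_ _ tree_par ?_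
    · rintro ⟨y, c, x⟩ he ⟨hx, hq⟩
      obtain ⟨h1, h2⟩ := (ifB_eq_true _ _).1 ((allL_eq_true _ _).1 tree_ent _ he)
      obtain ⟨h3, h4⟩ := (ifB_eq_true _ _).1 h2
      have hc : c < 6 := Nat.le_of_ble_eq_true h1
      have hyx : y = Tc c x := Nat.eq_of_beq_eq_true h3
      have hl : lab3 y = lab3 x := Nat.eq_of_beq_eq_true h4
      have hv : (E.Tp c ⟨x, hx⟩ : ℕ) = y := by
        rw [E.hT c (by omega), hyx]
        rfl
      refine ⟨by rw [← hv]; exact (E.Tp c ⟨x, hx⟩).2, fun p hp q => ?_⟩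
      -- the parent
      have hly : lab3 y = 1 := by
        have h5 := lab3_fF p
        rwa [show ((fF p : Fin 1782) : ℕ) = y from hp] at h5
      obtain ⟨p₁, hp₁⟩ := exists_fF (z := ⟨x, hx⟩) (by rw [← hly, hl])
      have hlift := lift_letter E hc
      have hpg : p = Lt c p₁ := by
        apply fF_inj
        rw [← hlift.2, hp₁]
        exact Fin.ext (hp.trans hv.symm)
      have hq₁ : q = Lt c ((Lt c)⁻¹ q) := by simp
      have hch := (allL_eq_true _ _).1 rowB_tree _ he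
      rw [orC_eq_true] at hch
      rcases hch with hch | hch
      · exact absurd hly (neB_ne hch)
      · simp only [force_eq] at hch
        have hfI : app 9 511 fI x = p₁ := by
          have h5 := allN_spec finv_ok x hx
          rw [orC_eq_true] at h5
          rcases h5 with h5 | h5
          · exact absurd (hl.symm.trans hly) (neB_ne h5)
          · obtain ⟨h6, h7⟩ := (ifB_eq_true _ _).1 h5
            have h8 : fF ⟨_, Nat.le_of_ble_eq_true h6⟩ = fF p₁ :=
              Fin.ext ((Nat.eq_of_beq_eq_true h7).trans (congrArg Fin.val hp₁).symm)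
            exact congrArg Fin.val (fF_inj h8)
        rw [hfI] at hch
        have hq' := bEq_iff (allN_spec hch _ ((Lt c)⁻¹ q).2)
        have hap : ∀ w : Fin 416, ap c w = (Lt c w : ℕ) := fun w => (rep_val (Lt_rep hc) w).symm
        rw [hap, hap] at hq'
        have hq2 : Lt c ((Lt c)⁻¹ q) = q := by simp
        rw [hq2] at hq'
        have h10 : AdjT E (fF (Lt c p₁)) (fF q) ↔ AdjT E (fF p₁) (fF ((Lt c)⁻¹ q)) := by
          have h11 := adjT_smul E hlift.1 (fF p₁) (fF ((Lt c)⁻¹ q))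
          rwa [hlift.2, hlift.2, hq2] at h11
        rw [hpg, h10, hq _ (congrArg Fin.val hp₁) _, hq']
    · intro y hy
      rw [bit_maskL] at hy
      obtain ⟨v0, v1, v2, v3⟩ := lab3_vals
      have hy' : y = 0 ∨ y = 995 ∨ y = 2 := by simpa [R3] using hy
      rcases hy' with rfl | rfl | rfl
      · refine ⟨by norm_num, fun p hp q => ?_⟩
        have := lab3_fF p
        rw [show ((fF p : Fin 1782) : ℕ) = 0 from hp, v0] at this
        exact absurd this (by norm_num)
      · refine ⟨by norm_num, fun p hp q => ?_⟩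
        have hp0 : p = p0 := by
          apply fF_inj
          rw [fF_p0]
          exact Fin.ext hp
        rw [hp0, fF_p0, adjT_z1]
        have h5 := bEq_iff (allN_spec rowB_root q q.2)
        show _ ↔ bit (rowB 0) q = true
        rw [h5]
        rfl
      · refine ⟨by norm_num, fun p hp q => ?_⟩
        have := lab3_fF p
        rw [show ((fF p : Fin 1782) : ℕ) = 2 from hp, v2] at this
        exact absurd this (by norm_num)
  have hcov : allN (bit (treeMem treeO (maskL R3))) 1782 = true := by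
    have := tree_cov
    rwa [force_eq] at this
  exact (hR (fp p) (allN_spec hcov _ (fp_lt p))).2 p rfl q

theorem P_le : E.P ≤ AutA 416 rowB := by
  intro g hg x y
  obtain ⟨u, hu⟩ := exists_lift E hg
  apply Bool.eq_iff_iff.2
  rw [← adjT_f E, ← adjT_f E, ← hu.2, ← hu.2]
  exact adjT_smul E hu.1 _ _

open Classical in
/-- The neighbours of a vertex among the neighbours of `0`. -/
noncomputable def sgS (z : Fin 1782) : Finset (Fin 416) := Finset.univ.filter fun p => AdjT E (fF p) z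

theorem mem_sgS {z : Fin 1782} {p : Fin 416} : p ∈ sgS E z ↔ AdjT E (fF p) z := by simp [sgS]

theorem sgS_inj {z z' : Fin 1782} (h : sgS E z = sgS E z') : z = z' := by
  have hq : ∀ p ∈ Qp, adjS (fp p) z = adjS (fp p) z' := by
    intro p hp
    have hlt : p < 416 := Nat.le_of_ble_eq_true ((allL_eq_true _ _).1 qp_ok p hp)
    have h2 := Finset.ext_iff.1 h ⟨p, hlt⟩
    rw [mem_sgS, mem_sgS] at h2
    obtain ⟨hz', hr⟩ := row_good E ((allL_eq_true _ _).1 row_Qp p hp)
    have h3 : fF ⟨p, hlt⟩ = ⟨fp p, hz'⟩ := rfl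
    rw [h3, hr, hr] at h2
    exact Bool.eq_iff_iff.2 h2
  have hc := codeQ_congr hq
  have h1 : allPairs (fun x => x) ((List.range 1782).map codeQ) 0 = true := by
    have := sep_ok
    rwa [buildL_eq] at this
  exact Fin.ext (allPairs_map h1 z.2 z'.2 hc)

variable {E} in
theorem mem_sgS_lift {g : PP} {u : SS} (hl : IsLift E g u) (z : Fin 1782) (p : Fin 416) :
    g p ∈ sgS E (u z) ↔ p ∈ sgS E z := by
  rw [mem_sgS, mem_sgS, ← hl.2]
  exact adjT_smul E hl.1 _ _

theorem sgS_zero : sgS E z0 = Finset.univ := by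
  ext p
  simp only [Finset.mem_univ, iff_true]
  rw [mem_sgS, adjT_symm, adjT_zero]
  exact lab3_fF p

/-- The bound for the automorphisms of the graph on `416` vertices. -/
theorem card_AB_le : Nat.card (AutA 416 rowB) ≤ 503193600 := by
  have h := det_bound (n := 416) (ALL := allM) (row := rowB) (allN_spec allM_ok) [] stB 0 (AutA 416 rowB) le_rfl
    (by simp) (fun g _ d hd hb => by
      rw [bit_zero'] at hb
      exact Bool.noConfusion hb) (fun d hb => by
      rw [bit_zero'] at hb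
      exact Bool.noConfusion hb) okB
  rwa [bdB] at h

/-- An automorphism fixing `0` acts on the graph on `416` vertices. -/
theorem exists_rho {g : SS} (hg : g ∈ AS E) (h0 : g z0 = z0) :
    ∃ r ∈ AutA 416 rowB, ∀ p, g (fF p) = fF (r p) := by
  classical
  have hlab : ∀ p, ∃ q, fF q = g (fF p) := by
    intro p
    apply exists_fF
    have h1 := hg z0 (fF p)
    rw [h0, adjT_zero, adjT_zero] at h1
    exact h1.2 (lab3_fF p)
  choose r₀ hr₀ using hlab
  have hinj : Function.Injective r₀ := by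
    intro p q h
    have h1 : g (fF p) = g (fF q) := by rw [← hr₀, ← hr₀, h]
    exact fF_inj (g.injective h1)
  let r : PP := Equiv.ofBijective r₀ (Finite.injective_iff_bijective.1 hinj)
  have hr : ∀ p, r p = r₀ p := fun p => rfl
  refine ⟨r, ?_, fun p => ?_⟩
  · intro x y
    apply Bool.eq_iff_iff.2
    rw [← adjT_f E, ← adjT_f E, hr, hr, hr₀, hr₀]
    exact hg _ _
  · rw [hr, hr₀]

/-- The bound for the stabilizer of a vertex. -/
theorem card_stab_le : Nat.card (AS E ⊓ stabilizer SS z0 : Subgroup SS) ≤ 503193600 := by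
  classical
  have hex : ∀ g : (AS E ⊓ stabilizer SS z0 : Subgroup SS), ∃ r : AutA 416 rowB, ∀ p, g.1 (fF p) = fF (r.1 p) := by
    intro g
    obtain ⟨r, hr, h⟩ := exists_rho E g.2.1 g.2.2
    exact ⟨⟨r, hr⟩, h⟩
  choose ρ hρ using hex
  have hinj : Function.Injective ρ := by
    intro g g' hgg
    apply Subtype.ext
    ext1 z
    apply sgS_inj E
    ext p
    obtain ⟨q, rfl⟩ := (ρ g).1.surjective p
    have h1 := g.2.1 (fF q) z
    have h2 := g'.2.1 (fF q) z
    rw [hρ] at h1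
    rw [hρ, ← hgg] at h2
    rw [mem_sgS, mem_sgS]
    exact h1.trans h2.symm
  exact (Nat.card_le_card_of_injective ρ hinj).trans card_AB_le

/-- **The bound for the group of automorphisms.** -/
theorem card_AS_le : Nat.card (AS E) ≤ 896690995200 := by
  have h := card_le_of_orbit (AS E) z0 Finset.univ (fun _ _ => Finset.mem_univ _)
  rw [Finset.card_univ, Fintype.card_fin] at h
  have h2 := card_stab_le E
  omega

/-! ### The bad sets of neighbours -/

theorem cells_inv {c : ℕ} {g : PP} (hg : ∀ x : Fin 416, app 9 511 c (g x) = app 9 511 c x) :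
    ∀ (ms : List ℕ) (j : ℕ), cellsOK c ms j = true → ∀ m ∈ ms, ∀ y : Fin 416, bit m (g y) = bit m y := by
  intro ms
  induction ms with
  | nil =>
    intro j _ m hm
    cases hm
  | cons a t ih =>
    intro j h m hm y
    have h' : ifB (allN (fun y => bEq (bit a y) (Nat.beq (app 9 511 c y) j)) 416) (cellsOK c t (Nat.succ j)) = true := h
    obtain ⟨h1, h2⟩ := (ifB_eq_true _ _).1 h'
    rcases List.mem_cons.1 hm with rfl | hm
    · rw [bEq_iff (allN_spec h1 _ (g y).2), bEq_iff (allN_spec h1 _ y.2), hg]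
    · exact ih _ h2 m hm y

theorem excl_gen {cA cB : ℕ} {ms : List ℕ} {st : List (ℕ × List ℕ)}
    (h1 : stepOK 416 9 511 8 rowB 3400 cA 416 cB = true) (h2 : cellsOK cB ms 0 = true)
    (h3 : detOK 416 allM st 0 = true) (h4 : detBd 416 allM rowB ms st 0 = 24576)
    (Y : Subgroup PP) (hY : Y ≤ AutA 416 rowB)
    (hc : ∀ g ∈ Y, ∀ x : Fin 416, app 9 511 cA (g x) = app 9 511 cA x) :
    Nat.card Y ≤ 24576 := by
  have hB : ∀ g ∈ Y, ∀ x : Fin 416, app 9 511 cB (g x) = app 9 511 cB x := fun g hg x =>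
    step_inv h1 (hY hg) (hc g hg) (fun x => ⟨fun h => absurd h (g x).2.ne, fun h => absurd h x.2.ne⟩) x
  have h := det_bound (n := 416) (ALL := allM) (row := rowB) (allN_spec allM_ok) ms st 0 Y hY
    (fun g hg m hm y => cells_inv (hB g hg) ms 0 h2 m hm y) (fun g _ d hd hb => by
      rw [bit_zero'] at hb
      exact Bool.noConfusion hb) (fun d hb => by
      rw [bit_zero'] at hb
      exact Bool.noConfusion hb) h3
  rwa [h4] at h

theorem col_of {c k : ℕ}
    (h : allN (fun p => Nat.beq (app 9 511 c p) (Bool.rec 0 1 (orC (Nat.beq (labU p) k) (Nat.beq (labU p) 3)))) 416 = true)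
    {g : PP} (hg : ∀ x : Fin 416, (labU (g x) = k ∨ labU (g x) = 3) ↔ (labU x = k ∨ labU x = 3)) (x : Fin 416) :
    app 9 511 c (g x) = app 9 511 c x := by
  have h1 := Nat.eq_of_beq_eq_true (allN_spec h _ (g x).2)
  have h2 := Nat.eq_of_beq_eq_true (allN_spec h _ x.2)
  rw [h1, h2]
  have hb : ∀ p, (orC (Nat.beq (labU p) k) (Nat.beq (labU p) 3) = true) ↔ (labU p = k ∨ labU p = 3) := by
    intro p
    rw [orC_eq_true]
    constructor
    · rintro (h | h)
      · exact Or.inl (Nat.eq_of_beq_eq_true h)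
      · exact Or.inr (Nat.eq_of_beq_eq_true h)
    · rintro (h | h)
      · left
        rw [h]
        exact Nat.beq_refl _
      · right
        rw [h]
        exact Nat.beq_refl _
  have h3 : orC (Nat.beq (labU (g x)) k) (Nat.beq (labU (g x)) 3) = orC (Nat.beq (labU x) k) (Nat.beq (labU x) 3) :=
    Bool.eq_iff_iff.2 ((hb _).trans ((hg x).trans (hb _).symm))
  rw [h3]

/-- **A subgroup preserving a bad set is small.** -/
theorem excl {k : ℕ} (hk : k < 3) (Y : Subgroup PP) (hY : Y ≤ AutA 416 rowB)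
    (hc : ∀ g ∈ Y, ∀ x : Fin 416, (labU (g x) = k ∨ labU (g x) = 3) ↔ (labU x = k ∨ labU x = 3)) :
    Nat.card Y ≤ 24576 := by
  have hk' : k = 0 ∨ k = 1 ∨ k = 2 := by omega
  rcases hk' with rfl | rfl | rfl
  · exact excl_gen stepC0 cells0 okC0 bdC0 Y hY fun g hg x => col_of cA_ok0 (hc g hg) x
  · exact excl_gen stepC1 cells1 okC1 bdC1 Y hY fun g hg x => col_of cA_ok1 (hc g hg) x
  · exact excl_gen stepC2 cells2 okC2 bdC2 Y hY fun g hg x => col_of cA_ok2 (hc g hg) x

/-! ### The Sylow subgroup -/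

/-- Words in the letters of `G₂(4)` give a pair of compatible elements. -/
theorem word_lift {w : List ℕ} (hw : lettersOK w = true) :
    ∃ g ∈ E.P, ∃ u, IsLift E g u ∧ (∀ x : Fin 416, (g x : ℕ) = evalW w x) ∧ ∀ z : Fin 1782, (u z : ℕ) = evalS w z := by
  induction w with
  | nil => exact ⟨1, one_mem _, 1, lift_one, fun x => rfl, fun z => rfl⟩
  | cons a t ih =>
    have hw' := (allL_eq_true _ _).1 hw
    obtain ⟨g, hg, u, hu, h1, h2⟩ := ih ((allL_eq_true _ _).2 (fun b hb => hw' b (List.mem_cons_of_mem _ hb)))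
    have ha : a < 6 := Nat.le_of_ble_eq_true (hw' a List.mem_cons_self)
    refine ⟨Lt a * g, mul_mem (E.hP.mem a ha) hg, _, lift_mul (lift_letter E ha) hu, fun y => ?_, fun z => ?_⟩
    · rw [evalW_cons, ← h1 y, ← rep_val (Lt_rep ha)]
      rfl
    · show _ = force (evalS t z) fun y => Tc a y
      rw [force_eq, ← h2 z, Equiv.Perm.mul_apply]
      exact E.hT a (by omega) _

/-- The generators of the Sylow subgroup. -/
theorem exists_U {k : ℕ} (hk : k < 4) : ∃ g ∈ E.P, ∃ u, IsLift E g u ∧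
    (∀ x : Fin 416, (g x : ℕ) = app 9 511 (nthN uC k) x) ∧ ∀ z : Fin 1782, (u z : ℕ) = app 11 2047 (nthN uS k) z := by
  have hlen := (ifB_eq_true _ _).1 u_len
  have hl1 : uW.length = 4 := Nat.eq_of_beq_eq_true hlen.1
  have hm : nthW uW k ∈ uW := nthW_mem uW k (by omega)
  obtain ⟨g, hg, u, hu, h1, h2⟩ := word_lift E ((allL_eq_true _ _).1 u_letters _ hm)
  refine ⟨g, hg, u, hu, fun x => ?_, fun z => ?_⟩
  · rw [h1]
    exact Nat.eq_of_beq_eq_true (allN_spec (allN_spec u416 k hk) x x.2)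
  · rw [h2]
    exact Nat.eq_of_beq_eq_true (allN_spec (allN_spec u1782 k hk) z z.2)

end Cfsg.Agent.Lib.SuzRec.Graph
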