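import Cfsg.Agent.Lib.SuzRec.KLChecks

/-!
# The subgroups of index `416` of `G₂(4)` are the point stabilizers of the action on `416` points

A subgroup of the Hall-Janko group containing a Sylow `5`-subgroup and with at least `1454` elements is the whole group:
two Sylow `5`-subgroups generate the whole group unless they meet non-trivially.
-/

set_option autoImplicit false
set_option maxRecDepth 100000

namespace Cfsg.Agent.Lib.SuzRec.KL

open scoped Pointwise
open MulAction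
open Cfsg.Agent.Lib.PermComp.Core Cfsg.Agent.Lib.FusionSimple2.Codes
open Cfsg.Agent.Lib.TC.Enc Cfsg.Agent.Lib.SuzRec.Basic Cfsg.Agent.Lib.SuzRec.KLData
  Cfsg.Agent.Lib.SuzRec.KLChecks
open Cfsg.Agent.Lib.G24J2

local notation "PP" => Equiv.Perm (Fin 416)
local notation "RR" => Rep 9 511 (Equiv.refl (Fin 416))
local notation "HH" => H 9 511 (Equiv.refl (Fin 416))

theorem rep_of_val {c : ℕ} {g : PP} (h : ∀ x : Fin 416, (g x : ℕ) = app 9 511 c x) : RR c g := by
  intro x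
  simp only [Equiv.refl_apply]
  exact (h x).symm

theorem val_of_rep {c : ℕ} {g : PP} (h : RR c g) (x : Fin 416) : (g x : ℕ) = app 9 511 c x := by
  have := h x
  simp only [Equiv.refl_apply] at this
  exact this.symm

theorem eq_of_rep {c : ℕ} {g h : PP} (h1 : RR c g) (h2 : RR c h) : g = h := by
  ext x
  rw [val_of_rep h1, val_of_rep h2]

/-- The elements of a code. -/
theorem dec_rep {c : ℕ} {g : PP} (h : RR c g) : RR c (dec c) := rep_dec h

theorem dec_eq {c : ℕ} {g : PP} (h : RR c g) : dec c = g := eq_of_rep (rep_dec h) h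

section Model

variable {P : Subgroup PP} (hP : Model P)
include hP

theorem code_word {u : List ℕ} {c : ℕ} (hu : lettersOK u = true)
    (hc : ∀ p < 416, evalW u p = app 9 511 c p) : ∃ g ∈ P, RR c g := by
  obtain ⟨g, hg, hv⟩ := word_in hP u hu
  refine ⟨g, hg, rep_of_val fun x => ?_⟩
  rw [hv, hc x x.2]

/-- The generators. -/
theorem exists_G {k : ℕ} (hk : k < 7) : ∃ g ∈ P, RR (nthN gL k) g := by
  have h := (ifB_eq_true _ _).1 (allN_spec g_ok k hk)
  exact code_word hP h.1 fun p hp => Nat.eq_of_beq_eq_true (allN_spec h.2 p hp)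

omit hP in
theorem g_fix0 {k : ℕ} (hk : k < 7) {g : PP} (hg : RR (nthN gL k) g) : g p0 = p0 := by
  apply Fin.ext
  rw [val_of_rep hg]
  exact Nat.eq_of_beq_eq_true (allN_spec g0_ok k hk)

omit hP in
theorem g_inv {k : ℕ} (hk : k < 7) {g : PP} (hg : RR (nthN gL k) g) (x : Fin 416) : g (g x) = x := by
  apply Fin.ext
  rw [val_of_rep hg, val_of_rep hg]
  exact Nat.eq_of_beq_eq_true (allN_spec (allN_spec ginv_ok k hk) x x.2)

omit hP in
/-- The sets attached to the Sylow subgroups. -/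
noncomputable def F (i : ℕ) : Finset (Fin 416) := Finset.univ.filter fun p => bit (Xm i) p = true

omit hP in
theorem mem_F {i : ℕ} {p : Fin 416} : p ∈ F i ↔ bit (Xm i) p = true := by simp [F]

omit hP in
/-- The action of the generators on the sets. -/
theorem gen_img {k : ℕ} (hk : k < 7) {g : PP} (hg : RR (nthN gL k) g) {i : ℕ} (hi : i < 2016) :
    g • F i = F (tb k i) ∧ tb k i < 2016 := by
  have key : ∀ i < 2016, tb k i < 2016 ∧ tb k (tb k i) = i ∧ ∀ p : Fin 416, p ∈ F i → g p ∈ F (tb k i) := by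
    intro i hi
    have h' := tab_all hk hi
    unfold tabI at h'
    simp only [force_eq] at h'
    obtain ⟨h1, h2⟩ := (ifB_eq_true _ _).1 h'
    obtain ⟨h3, h4⟩ := (ifB_eq_true _ _).1 h2
    refine ⟨Nat.le_of_ble_eq_true h1, Nat.eq_of_beq_eq_true h3, fun p hp => ?_⟩
    rw [mem_F] at hp ⊢
    have := allN_spec h4 p p.2
    rw [orC_eq_true, hp] at this
    rcases this with h5 | h5
    · exact Bool.noConfusion h5
    · rw [val_of_rep hg]
      exact h5
  obtain ⟨h1, h2, h3⟩ := key i hi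
  obtain ⟨h4, h5, h6⟩ := key _ h1
  refine ⟨?_, h1⟩
  ext y
  rw [Finset.mem_smul_finset]
  constructor
  · rintro ⟨x, hx, rfl⟩
    exact h3 x hx
  · intro hy
    have := h6 y hy
    rw [h2] at this
    exact ⟨g y, this, g_inv hk hg y⟩

omit hP in
theorem F_inj_aux {i j : ℕ} (hij : i < j) (hj : j < 2016) : Xm i < Xm j := by
  induction j with
  | zero => omega
  | succ j ih =>
    have h1 : Xm j < Xm (j + 1) := Nat.le_of_ble_eq_true (allN_spec sorted_ok j (by omega))
    rcases Nat.lt_succ_iff_lt_or_eq.1 hij with h | rfl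
    · exact (ih h (by omega)).trans h1
    · exact h1

omit hP in
theorem Xm_lt {i : ℕ} (hi : i < 2016) : Xm i < 2 ^ 416 := by
  have h1 : Xm 2015 < 2 ^ 416 := Nat.le_of_ble_eq_true top_ok
  rcases Nat.lt_or_ge i 2015 with h | h
  · exact (F_inj_aux h (by norm_num)).trans h1
  · have : i = 2015 := by omega
    rw [this]
    exact h1

omit hP in
theorem F_inj {i j : ℕ} (hi : i < 2016) (hj : j < 2016) (h : F i = F j) : i = j := by
  have hX : Xm i = Xm j := by
    apply Nat.eq_of_testBit_eq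
    intro y
    rcases Nat.lt_or_ge y 416 with hy | hy
    · rw [← bit_eq_testBit, ← bit_eq_testBit]
      have := Finset.ext_iff.1 h ⟨y, hy⟩
      rw [mem_F, mem_F] at this
      cases h1 : bit (Xm i) y <;> cases h2 : bit (Xm j) y <;> simp_all
    · rw [Nat.testBit_lt_two_pow ((Xm_lt hi).trans_le (Nat.pow_le_pow_right (by norm_num) hy)),
        Nat.testBit_lt_two_pow ((Xm_lt hj).trans_le (Nat.pow_le_pow_right (by norm_num) hy))]
  rcases lt_trichotomy i j with h1 | h1 | h1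
  · exact absurd hX (F_inj_aux h1 hj).ne
  · exact h1
  · exact absurd hX (F_inj_aux h1 hi).ne'

/-- The group generated by the four letters is the stabilizer of the point. -/
theorem J_eq : HH Cfsg.Agent.Lib.SuzRec.CertJ.cJ_T = Q0 P := by
  have hT : ∀ c ∈ Cfsg.Agent.Lib.SuzRec.CertJ.cJ_T, ∃ g, RR c g := by
    intro c hc
    rw [T_J, List.mem_map] at hc
    obtain ⟨k, hk, rfl⟩ := hc
    obtain ⟨g, -, hg⟩ := exists_G hP (k := k) (by have := List.mem_range.1 hk; omega)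
    exact ⟨g, hg⟩
  have h := main_of_checkAll (e := Equiv.refl (Fin 416)) hT Cfsg.Agent.Lib.SuzRec.CertJ.cJ_ok
  have hc : Nat.card (HH Cfsg.Agent.Lib.SuzRec.CertJ.cJ_T) = 604800 := by
    rw [h.2.2.2.2.2]
    exact Cfsg.Agent.Lib.SuzRec.CertJ.cJ_order
  have hle : HH Cfsg.Agent.Lib.SuzRec.CertJ.cJ_T ≤ Q0 P := by
    apply (Subgroup.closure_le _).2
    rintro g ⟨c, hc', hg⟩
    rw [T_J, List.mem_map] at hc'
    obtain ⟨k, hk, rfl⟩ := hc'
    have hk' : k < 7 := by have := List.mem_range.1 hk; omega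
    obtain ⟨g', hg', hr⟩ := exists_G hP hk'
    rw [eq_of_rep hg hr]
    exact ⟨hg', g_fix0 hk' hr⟩
  have hcQ : Nat.card (Q0 P) = 604800 := by
    rw [← card_stab hP]
    apply Nat.card_congr
    exact ⟨fun x => ⟨⟨x.1, x.2.1⟩, x.2.2⟩, fun x => ⟨x.1.1, x.1.2, x.2⟩, fun x => rfl, fun x => rfl⟩
  exact Subgroup.eq_of_le_of_card_ge hle (by rw [hc, hcQ])

/-- Closure of the family of sets under the stabilizer. -/
theorem orbit_in {g : PP} (hg : g ∈ Q0 P) {i : ℕ} (hi : i < 2016) : ∃ j < 2016, g • F i = F j := by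
  rw [← J_eq hP] at hg
  have key := closure_induction_left_finite (P := fun g : PP => ∀ i < 2016, ∃ j < 2016, g • F i = F j)
    (S := {g | ∃ c ∈ Cfsg.Agent.Lib.SuzRec.CertJ.cJ_T, RR c g}) ?_ ?_ hg
  · exact key i hi
  · intro i hi
    exact ⟨i, hi, one_smul _ _⟩
  · rintro s ⟨c, hc, hs⟩ h ih i hi
    rw [T_J, List.mem_map] at hc
    obtain ⟨k, hk, rfl⟩ := hc
    have hk' : k < 7 := by have := List.mem_range.1 hk; omega
    obtain ⟨j, hj, he⟩ := ih i hi
    have := gen_img hk' hs hj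
    exact ⟨_, this.2, by rw [mul_smul, he, this.1]⟩

/-- The family is one orbit. -/
theorem orbit_all {i : ℕ} (hi : i < 2016) : ∃ g ∈ Q0 P, g • F i0 = F i := by
  let R : ℕ → Prop := fun i => i < 2016 ∧ ∃ g ∈ Q0 P, g • F i0 = F i
  have hR : ∀ y, bit (treeMem treeJ (setBit 0 i0)) y = true → R y := by
    refine tree_reach treeJ ?_ _ treeJ_par ?_
    · rintro ⟨y, k, x⟩ he ⟨hx', g, hg, he'⟩
      have h := (ifB_eq_true _ _).1 ((allL_eq_true _ _).1 treeJ_ent _ he)
      have hk : k < 4 := Nat.le_of_ble_eq_true h.1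
      have hyx : y = tb k x := Nat.eq_of_beq_eq_true h.2
      obtain ⟨g', hg', hr⟩ := exists_G hP (k := k) (by omega)
      have := gen_img (k := k) (by omega) hr hx'
      show y < 2016 ∧ _
      rw [hyx]
      refine ⟨this.2, g' * g, Subgroup.mul_mem _ ⟨hg', g_fix0 (by omega) hr⟩ hg, ?_⟩
      rw [mul_smul, he', this.1]
    · intro y hy
      rw [bit_setBit, bit_zero'] at hy
      simp only [Bool.false_eq_true, false_or] at hy
      subst hy
      have h1 := (ifB_eq_true _ _).1 labX_i0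
      have h2 := (ifB_eq_true _ _).1 h1.2
      have h3 : i0 ≤ 2015 := Nat.le_of_ble_eq_true h2.1
      exact ⟨by omega, 1, Subgroup.one_mem _, one_smul _ _⟩
  have hcov : allN (bit (treeMem treeJ (setBit 0 i0))) 2016 = true := by
    have := treeJ_cov
    rwa [force_eq] at this
  exact (hR i (allN_spec hcov i hi)).2

omit hP in
/-- The normaliser of the base Sylow subgroup, as a group generated by three involutions. -/
noncomputable abbrev NN : Subgroup PP := HH Cfsg.Agent.Lib.SuzRec.CertN.cN_T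

omit hP in
/-- The base Sylow subgroup. -/
noncomputable abbrev QQ : Subgroup PP := HH Cfsg.Agent.Lib.SuzRec.CertQ.cQ_T

theorem mem_T_N {c : ℕ} (hc : c ∈ Cfsg.Agent.Lib.SuzRec.CertN.cN_T) : ∃ k < 7, 4 ≤ k ∧ c = nthN gL k := by
  rw [T_N, List.mem_map] at hc
  obtain ⟨k, hk, rfl⟩ := hc
  have := List.mem_range.1 hk
  exact ⟨k + 4, by omega, by omega, rfl⟩

theorem card_NN : Nat.card NN = 300 := by
  have hT : ∀ c ∈ Cfsg.Agent.Lib.SuzRec.CertN.cN_T, ∃ g, RR c g := by
    intro c hc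
    obtain ⟨k, hk, -, rfl⟩ := mem_T_N hP hc
    obtain ⟨g, -, hg⟩ := exists_G hP hk
    exact ⟨g, hg⟩
  have h := main_of_checkAll (e := Equiv.refl (Fin 416)) hT Cfsg.Agent.Lib.SuzRec.CertN.cN_ok
  rw [h.2.2.2.2.2]
  exact Cfsg.Agent.Lib.SuzRec.CertN.cN_order

theorem NN_le : NN ≤ Q0 P := by
  apply (Subgroup.closure_le _).2
  rintro g ⟨c, hc', hg⟩
  obtain ⟨k, hk, -, rfl⟩ := mem_T_N hP hc'
  obtain ⟨g', hg', hr⟩ := exists_G hP hk
  rw [eq_of_rep hg hr]
  exact ⟨hg', g_fix0 hk hr⟩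

theorem i0_lt : i0 < 2016 := by
  have h1 := (ifB_eq_true _ _).1 labX_i0
  have h2 := (ifB_eq_true _ _).1 h1.2
  have h3 : i0 ≤ 2015 := Nat.le_of_ble_eq_true h2.1
  omega

theorem NN_fix {n : PP} (hn : n ∈ NN) : n • F i0 = F i0 := by
  have key := closure_induction_left_finite (P := fun g : PP => g • F i0 = F i0)
    (S := {g | ∃ c ∈ Cfsg.Agent.Lib.SuzRec.CertN.cN_T, RR c g}) (one_smul _ _) ?_ hn
  · exact key
  · rintro s ⟨c, hc, hs⟩ h ih
    rw [T_N, List.mem_map] at hc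
    obtain ⟨k, hk, rfl⟩ := hc
    have hk' := List.mem_range.1 hk
    rw [mul_smul, ih, (gen_img (k := k + 4) (by omega) hs (i0_lt hP)).1]
    congr 1
    exact Nat.eq_of_beq_eq_true (allN_spec N_fix k hk')

theorem card_Q0 : Nat.card (Q0 P) = 604800 := by
  rw [← card_stab hP]
  apply Nat.card_congr
  exact ⟨fun x => ⟨⟨x.1, x.2.1⟩, x.2.2⟩, fun x => ⟨x.1.1, x.1.2, x.2⟩, fun x => rfl, fun x => rfl⟩

/-- The stabilizer of the base set is the normaliser. -/
theorem stab_le {g : PP} (hg : g ∈ Q0 P) (hf : g • F i0 = F i0) : g ∈ NN := by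
  classical
  haveI : Fact (0 < 1) := ⟨one_pos⟩
  let J := Q0 P
  have horb : orbit J (F i0) = Set.range (fun i : Fin 2016 => F i) := by
    ext S
    constructor
    · rintro ⟨u, rfl⟩
      obtain ⟨j, hj, he⟩ := orbit_in hP u.2 (i0_lt hP)
      exact ⟨⟨j, hj⟩, he.symm⟩
    · rintro ⟨i, rfl⟩
      obtain ⟨u, hu, he⟩ := orbit_all hP i.2
      exact ⟨⟨u, hu⟩, he⟩
  have hinj : Function.Injective (fun i : Fin 2016 => F i) := by
    intro i j hij
    exact Fin.ext (F_inj i.2 j.2 hij)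
  have hn : (orbit J (F i0)).ncard = 2016 := by
    rw [horb, ← Set.image_univ, Set.ncard_image_of_injective _ hinj, Set.ncard_univ, Nat.card_fin]
  have h1 := (stabilizer J (F i0)).card_mul_index
  rw [index_stabilizer, hn, card_Q0 hP] at h1
  have hS : Nat.card (stabilizer J (F i0)) = 300 := by omega
  let S' : Subgroup PP := (stabilizer J (F i0)).map J.subtype
  have hS' : Nat.card S' = 300 := by
    rw [← hS]
    exact (Nat.card_congr (Subgroup.equivMapOfInjective _ _ J.subtype_injective).toEquiv).symm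
  have hle : NN ≤ S' := by
    intro n hn'
    exact ⟨⟨n, NN_le hP hn'⟩, NN_fix hP hn', rfl⟩
  have heq : NN = S' := Subgroup.eq_of_le_of_card_ge hle (by rw [hS', card_NN hP])
  rw [heq]
  exact ⟨⟨g, hg⟩, hf, rfl⟩

/-- Two sets with the same label are moved to each other by the normaliser. -/
theorem lab_same {i j : ℕ} (hi : i < 2016) (hj : j < 2016) (h : labX i = labX j) :
    ∃ n ∈ NN, n • F i = F j := by
  let R : ℕ → Prop := fun y => y < 2016 ∧ ∃ n ∈ NN, n • F (nthN rootsN (labX y)) = F y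
  have hR : ∀ y, bit (treeMem treeN (maskL rootsN)) y = true → R y := by
    refine tree_reach treeN ?_ _ treeN_par ?_
    · rintro ⟨y, k, x⟩ he ⟨hx', n, hn, he'⟩
      have h1 := (ifB_eq_true _ _).1 ((allL_eq_true _ _).1 treeN_ent _ he)
      have h2 := (ifB_eq_true _ _).1 h1.2
      have h3 := (ifB_eq_true _ _).1 h2.2
      have hk4 : 4 ≤ k := Nat.le_of_ble_eq_true h1.1
      have hk7 : k < 7 := Nat.le_of_ble_eq_true h2.1
      have hyx : y = tb k x := Nat.eq_of_beq_eq_true h3.1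
      have hl : labX y = labX x := Nat.eq_of_beq_eq_true h3.2
      obtain ⟨g', hg', hr⟩ := exists_G hP hk7
      have := gen_img hk7 hr hx'
      have hg'N : g' ∈ NN := by
        apply Subgroup.subset_closure
        refine ⟨nthN gL k, ?_, hr⟩
        rw [T_N, List.mem_map]
        exact ⟨k - 4, List.mem_range.2 (by omega), by
          show nthN gL (k - 4 + 4) = nthN gL k
          rw [Nat.sub_add_cancel hk4]⟩
      show y < 2016 ∧ _
      refine ⟨by rw [hyx]; exact this.2, g' * n, Subgroup.mul_mem _ hg'N hn, ?_⟩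
      show (g' * n) • F (nthN rootsN (labX y)) = F y
      rw [hl, mul_smul, he', this.1, hyx]
    · intro y hy
      rw [bit_maskL] at hy
      have h1 : nthN rootsN (labX y) = y := Nat.eq_of_beq_eq_true ((allL_eq_true _ _).1 treeN_root y hy)
      have h2 : y < 2016 := Nat.le_of_ble_eq_true ((allL_eq_true _ _).1 roots_lt y hy)
      refine ⟨h2, 1, Subgroup.one_mem _, ?_⟩
      rw [h1]
      exact one_smul _ _
  have hcov : allN (bit (treeMem treeN (maskL rootsN))) 2016 = true := by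
    have := treeN_cov
    rwa [force_eq] at this
  obtain ⟨-, n₁, hn₁, he₁⟩ := hR i (allN_spec hcov i hi)
  obtain ⟨-, n₂, hn₂, he₂⟩ := hR j (allN_spec hcov j hj)
  refine ⟨n₂ * n₁⁻¹, Subgroup.mul_mem _ hn₂ (Subgroup.inv_mem _ hn₁), ?_⟩
  rw [mul_smul, ← he₁, inv_smul_smul, h, he₂]

/-- The labels are invariant under the normaliser. -/
theorem lab_inv {n : PP} (hn : n ∈ NN) {i : ℕ} (hi : i < 2016) :
    ∃ j < 2016, n • F i = F j ∧ labX j = labX i := by
  have key := closure_induction_left_finite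
    (P := fun g : PP => ∀ i < 2016, ∃ j < 2016, g • F i = F j ∧ labX j = labX i)
    (S := {g | ∃ c ∈ Cfsg.Agent.Lib.SuzRec.CertN.cN_T, RR c g})
    (fun i hi => ⟨i, hi, one_smul _ _, rfl⟩) ?_ hn
  · exact key i hi
  · rintro s ⟨c, hc, hs⟩ h ih i hi
    rw [T_N, List.mem_map] at hc
    obtain ⟨k, hk, rfl⟩ := hc
    have hk' := List.mem_range.1 hk
    obtain ⟨j, hj, he, hl⟩ := ih i hi
    have := gen_img (k := k + 4) (by omega) hs hj
    refine ⟨_, this.2, by rw [mul_smul, he]; exact this.1, ?_⟩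
    rw [← hl]
    exact Nat.eq_of_beq_eq_true (allN_spec (allN_spec labN_inv k hk') j hj)

/-- The generators of the base Sylow subgroup. -/
theorem exists_xy : (∃ g ∈ P, RR xC g ∧ g p0 = p0) ∧ (∃ g ∈ P, RR yC g ∧ g p0 = p0) := by
  have h1 := (ifB_eq_true _ _).1 xy_ok
  have h2 := (ifB_eq_true _ _).1 h1.2
  have h3 := (ifB_eq_true _ _).1 h2.2
  have h4 := (ifB_eq_true _ _).1 h3.2
  have h5 := (ifB_eq_true _ _).1 h4.2
  constructor
  · obtain ⟨g, hg, hr⟩ := code_word hP h1.1 fun p hp => Nat.eq_of_beq_eq_true (allN_spec h3.1 p hp)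
    refine ⟨g, hg, hr, Fin.ext ?_⟩
    rw [val_of_rep hr]
    exact Nat.eq_of_beq_eq_true h5.1
  · obtain ⟨g, hg, hr⟩ := code_word hP h2.1 fun p hp => Nat.eq_of_beq_eq_true (allN_spec h4.1 p hp)
    refine ⟨g, hg, hr, Fin.ext ?_⟩
    rw [val_of_rep hr]
    exact Nat.eq_of_beq_eq_true h5.2

theorem mem_T_Q {c : ℕ} : c ∈ Cfsg.Agent.Lib.SuzRec.CertQ.cQ_T ↔ c = xC ∨ c = yC := by
  rw [T_Q]
  simp

theorem card_QQ : Nat.card QQ = 25 := by
  obtain ⟨⟨x, -, hx, -⟩, ⟨y, -, hy, -⟩⟩ := exists_xy hP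
  have hT : ∀ c ∈ Cfsg.Agent.Lib.SuzRec.CertQ.cQ_T, ∃ g, RR c g := by
    intro c hc
    rcases (mem_T_Q hP).1 hc with rfl | rfl
    · exact ⟨x, hx⟩
    · exact ⟨y, hy⟩
  have h := main_of_checkAll (e := Equiv.refl (Fin 416)) hT Cfsg.Agent.Lib.SuzRec.CertQ.cQ_ok
  rw [h.2.2.2.2.2]
  exact Cfsg.Agent.Lib.SuzRec.CertQ.cQ_order

theorem QQ_le : QQ ≤ Q0 P := by
  obtain ⟨⟨x, hxP, hx, hx0⟩, ⟨y, hyP, hy, hy0⟩⟩ := exists_xy hP
  apply (Subgroup.closure_le _).2
  rintro g ⟨c, hc', hg⟩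
  rcases (mem_T_Q hP).1 hc' with rfl | rfl
  · rw [eq_of_rep hg hx]
    exact ⟨hxP, hx0⟩
  · rw [eq_of_rep hg hy]
    exact ⟨hyP, hy0⟩

omit hP in
theorem powC_val {c : ℕ} {g : PP} (h : RR c g) (a : ℕ) (x : Fin 416) : ((g ^ a) x : ℕ) = powC c a x := by
  induction a with
  | zero => rfl
  | succ a ih =>
    show _ = force (powC c a x) fun y => app 9 511 c y
    rw [force_eq, ← ih, pow_succ', Equiv.Perm.mul_apply, val_of_rep h]

/-- The generators of the normaliser normalise the Sylow subgroup. -/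
theorem gen_norm {k : ℕ} (hk : k < 3) {n : PP} (hn : RR (nthN gL (k + 4)) n) {q : PP} (hq : q ∈ QQ) :
    n * q * n⁻¹ ∈ QQ := by
  obtain ⟨⟨x, -, hx, -⟩, ⟨y, -, hy, -⟩⟩ := exists_xy hP
  have hxQ : x ∈ QQ := Subgroup.subset_closure ⟨xC, (mem_T_Q hP).2 (Or.inl rfl), hx⟩
  have hyQ : y ∈ QQ := Subgroup.subset_closure ⟨yC, (mem_T_Q hP).2 (Or.inr rfl), hy⟩
  have hninv : n⁻¹ = n := by
    ext z
    have h1 := g_inv (k := k + 4) (by omega) hn (n⁻¹ z)
    have h0 : n (n⁻¹ z) = z := by simp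
    rw [h0] at h1
    rw [h1]
  have hchk := allN_spec qrel_ok k hk
  simp only [force_eq] at hchk
  obtain ⟨h1, h2⟩ := (ifB_eq_true _ _).1 hchk
  have hX : n * x * n⁻¹ ∈ QQ := by
    have : n * x * n⁻¹ = x ^ (List.getD qrel (Nat.mul 2 k) (0, 0)).1 * y ^ (List.getD qrel (Nat.mul 2 k) (0, 0)).2 := by
      ext z
      rw [hninv]
      have h3 := Nat.eq_of_beq_eq_true (allN_spec h1 z z.2)
      simp only [Equiv.Perm.mul_apply]
      rw [val_of_rep hn, val_of_rep hx, val_of_rep hn, powC_val hx, powC_val hy]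
      exact h3
    rw [this]
    exact Subgroup.mul_mem _ (Subgroup.pow_mem _ hxQ _) (Subgroup.pow_mem _ hyQ _)
  have hY : n * y * n⁻¹ ∈ QQ := by
    have : n * y * n⁻¹ = x ^ (List.getD qrel (Nat.succ (Nat.mul 2 k)) (0, 0)).1 * y ^ (List.getD qrel (Nat.succ (Nat.mul 2 k)) (0, 0)).2 := by
      ext z
      rw [hninv]
      have h3 := Nat.eq_of_beq_eq_true (allN_spec h2 z z.2)
      simp only [Equiv.Perm.mul_apply]
      rw [val_of_rep hn, val_of_rep hy, val_of_rep hn, powC_val hx, powC_val hy]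
      exact h3
    rw [this]
    exact Subgroup.mul_mem _ (Subgroup.pow_mem _ hxQ _) (Subgroup.pow_mem _ hyQ _)
  have hle : QQ ≤ QQ.comap (MulAut.conj n).toMonoidHom := by
    apply (Subgroup.closure_le _).2
    rintro g ⟨c, hc, hg⟩
    rcases (mem_T_Q hP).1 hc with rfl | rfl
    · rw [eq_of_rep hg hx]
      exact hX
    · rw [eq_of_rep hg hy]
      exact hY
  exact hle hq

/-- The normaliser normalises the Sylow subgroup. -/
theorem NN_norm {n : PP} (hn : n ∈ NN) {q : PP} (hq : q ∈ QQ) : n * q * n⁻¹ ∈ QQ := by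
  have key := closure_induction_left_finite (P := fun g : PP => ∀ q ∈ QQ, g * q * g⁻¹ ∈ QQ)
    (S := {g | ∃ c ∈ Cfsg.Agent.Lib.SuzRec.CertN.cN_T, RR c g}) (fun q hq => by simpa using hq) ?_ hn
  · exact key q hq
  · rintro s ⟨c, hc, hs⟩ h ih q hq
    rw [T_N, List.mem_map] at hc
    obtain ⟨k, hk, rfl⟩ := hc
    have hk' := List.mem_range.1 hk
    have := gen_norm hP hk' hs (ih q hq)
    convert this using 1
    group

/-- The walk of a word through the sets. -/
theorem walk_spec {u : List ℕ} (hu : ∀ a ∈ u, 1 ≤ a ∧ a ≤ 4) :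
    ∃ g ∈ Q0 P, (∀ x : Fin 416, (g x : ℕ) = evalW u x) ∧ ∀ i < 2016, g • F i = F (walk u i) ∧ walk u i < 2016 := by
  induction u with
  | nil =>
    exact ⟨1, Subgroup.one_mem _, fun x => rfl, fun i hi => ⟨one_smul _ _, hi⟩⟩
  | cons a t ih =>
    obtain ⟨g, hg, hv, hw⟩ := ih fun b hb => hu b (List.mem_cons_of_mem _ hb)
    obtain ⟨ha1, ha4⟩ := hu a List.mem_cons_self
    obtain ⟨k, rfl⟩ : ∃ k, a = k + 1 := ⟨a - 1, by omega⟩
    have hk : k < 4 := by omega
    have hL : RR (nthN gL k) (Lt (k + 1)) := by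
      apply rep_of_val
      intro x
      have h1 := Nat.eq_of_beq_eq_true (allN_spec (allN_spec letters_ok k hk) x x.2)
      rw [← h1]
      exact rep_val (Lt_rep (c := k + 1) (by omega)) x
    refine ⟨Lt (k + 1) * g, Subgroup.mul_mem _ ⟨hP.mem _ (by omega), g_fix0 (by omega) hL⟩ hg, ?_, ?_⟩
    · intro x
      rw [evalW_cons, ← hv x, ← rep_val (Lt_rep (c := k + 1) (by omega))]
      rfl
    · intro i hi
      obtain ⟨h1, h2⟩ := hw i hi
      have h3 := gen_img (k := k) (by omega) hL h2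
      have hwalk : walk ((k + 1) :: t) i = tb k (walk t i) := by
        show force (walk t i) (fun j => tb (Nat.pred (k + 1)) j) = _
        rw [force_eq]
        rfl
      rw [hwalk]
      exact ⟨by rw [mul_smul, h1, h3.1], h3.2⟩

/-- Words in elements of a subgroup. -/
theorem evalC_mem {T : List ℕ} {L : Subgroup PP} (hT : ∀ a < T.length, ∃ g ∈ L, RR (nthN T a) g)
    {u : List ℕ} (hu : ∀ a ∈ u, a < T.length) :
    ∃ g ∈ L, ∀ x : Fin 416, (g x : ℕ) = evalC T u x := by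
  induction u with
  | nil => exact ⟨1, Subgroup.one_mem _, fun x => rfl⟩
  | cons a t ih =>
    obtain ⟨g, hg, hv⟩ := ih fun b hb => hu b (List.mem_cons_of_mem _ hb)
    obtain ⟨h, hh, hr⟩ := hT a (hu a List.mem_cons_self)
    refine ⟨h * g, Subgroup.mul_mem _ hh hg, fun x => ?_⟩
    show _ = force (evalC T t x) fun y => app 9 511 (nthN T a) y
    rw [force_eq, ← hv x, Equiv.Perm.mul_apply, val_of_rep hr]

/-- A class of Sylow subgroups generating the whole group. -/
theorem gen_class {L : Subgroup PP} (hLJ : L ≤ Q0 P) (hQ : QQ ≤ L) {g : PP} (hgL : g ∈ L) {i : ℕ}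
    (hi : i < 2016) (hgi : g • F i0 = F i) (h0 : labX i ≠ 0) (h17 : labX i ≠ 17) : L = Q0 P := by
  have hj : labX i < 18 := Nat.le_of_ble_eq_true (allN_spec labX_lt i hi)
  have hcov := allN_spec genD_cov _ hj
  rw [orC_eq_true, orC_eq_true, anyL_eq_true] at hcov
  obtain ⟨d, hd, hdj⟩ : ∃ d ∈ genD, d.1 = labX i := by
    rcases hcov with h | h | ⟨d, hd, h⟩
    · exact absurd (Nat.eq_of_beq_eq_true h) h0
    · exact absurd (Nat.eq_of_beq_eq_true h) h17
    · exact ⟨d, hd, Nat.eq_of_beq_eq_true h⟩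
  have hchk := (allL_eq_true _ _).1 genD_ok d hd
  obtain ⟨dj, xj, yj, e, eW', ws⟩ := d
  simp only [genOK, force_eq, ifB_eq_true] at hchk
  obtain ⟨h1, h2, h3, h4, h5, h6, h7⟩ := hchk
  simp only at hdj h3
  subst hdj
  -- the conjugator
  obtain ⟨e₀, he₀, hev, hew⟩ := walk_spec hP (u := eW') (fun a ha => by
    have := (ifB_eq_true _ _).1 ((allL_eq_true _ _).1 h2 a ha)
    exact ⟨Nat.le_of_ble_eq_true this.1, Nat.le_of_ble_eq_true this.2⟩)
  have hef : e₀ • F i0 = F (nthN rootsN (labX i)) := by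
    have := (hew i0 (i0_lt hP)).1
    rwa [Nat.eq_of_beq_eq_true h3] at this
  have her : RR e e₀ := rep_of_val fun x => by
    rw [hev]
    exact Nat.eq_of_beq_eq_true (allN_spec h4 x x.2)
  have hroot := (ifB_eq_true _ _).1 (allN_spec roots_lab _ hj)
  have hrl : labX (nthN rootsN (labX i)) = labX i := Nat.eq_of_beq_eq_true hroot.1
  have hrlt : nthN rootsN (labX i) < 2016 := Nat.le_of_ble_eq_true hroot.2
  obtain ⟨n, hn, hnf⟩ := lab_same hP hrlt hi hrl
  have hnJ := NN_le hP hn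
  -- the element of the normaliser
  let t : PP := (n * e₀)⁻¹ * g
  have hgJ := hLJ hgL
  have htJ : t ∈ Q0 P := Subgroup.mul_mem _ (Subgroup.inv_mem _ (Subgroup.mul_mem _ hnJ he₀)) hgJ
  have htf : t • F i0 = F i0 := by
    show ((n * e₀)⁻¹ * g) • F i0 = F i0
    rw [mul_smul, hgi, ← hnf, ← hef, inv_smul_eq_iff, mul_smul]
  have htN : t ∈ NN := stab_le hP htJ htf
  have hg_eq : n * e₀ = g * t⁻¹ := by
    simp [t]
  obtain ⟨⟨x, -, hx, -⟩, ⟨y, -, hy, -⟩⟩ := exists_xy hP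
  have hxQ : x ∈ QQ := Subgroup.subset_closure ⟨xC, (mem_T_Q hP).2 (Or.inl rfl), hx⟩
  have hyQ : y ∈ QQ := Subgroup.subset_closure ⟨yC, (mem_T_Q hP).2 (Or.inr rfl), hy⟩
  let L' : Subgroup PP := L.comap (MulAut.conj n).toMonoidHom
  have hmemL' : ∀ h, h ∈ L' ↔ n * h * n⁻¹ ∈ L := fun h => Iff.rfl
  have hQL' : ∀ q ∈ QQ, q ∈ L' := fun q hq => hQ (NN_norm hP hn hq)
  have hconj : ∀ q ∈ QQ, e₀ * q * e₀⁻¹ ∈ L' := by
    intro q hq
    rw [hmemL']
    have h8 : n * (e₀ * q * e₀⁻¹) * n⁻¹ = g * (t⁻¹ * q * t⁻¹⁻¹) * g⁻¹ := by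
      have : n * (e₀ * q * e₀⁻¹) * n⁻¹ = (n * e₀) * q * (n * e₀)⁻¹ := by group
      rw [this, hg_eq]
      group
    rw [h8]
    exact Subgroup.mul_mem _ (Subgroup.mul_mem _ hgL (hQ (NN_norm hP (Subgroup.inv_mem _ htN) hq)))
      (Subgroup.inv_mem _ hgL)
  have hall : ∀ a < ([xC, yC, xj, yj] : List ℕ).length, ∃ g ∈ L', RR (nthN [xC, yC, xj, yj] a) g := by
    intro a ha
    have hee : ∀ (c : ℕ) (z : PP), RR c z → ∀ c', (∀ p < 416, app 9 511 c' (app 9 511 e p) = app 9 511 e (app 9 511 c p)) →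
        RR c' (e₀ * z * e₀⁻¹) := by
      intro c z hz c' hc'
      apply rep_of_val
      intro w
      obtain ⟨p, rfl⟩ := e₀.surjective w
      have hia : e₀⁻¹ (e₀ p) = p := by simp
      rw [Equiv.Perm.mul_apply, Equiv.Perm.mul_apply, hia, val_of_rep her, val_of_rep hz,
        val_of_rep her]
      exact (hc' p p.2).symm
    have hh5 := fun p hp => (ifB_eq_true _ _).1 (allN_spec h5 p hp)
    have ha' : a = 0 ∨ a = 1 ∨ a = 2 ∨ a = 3 := by
      simp only [List.length_cons, List.length_nil] at ha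
      omega
    rcases ha' with rfl | rfl | rfl | rfl
    · exact ⟨x, hQL' x hxQ, hx⟩
    · exact ⟨y, hQL' y hyQ, hy⟩
    · exact ⟨_, hconj x hxQ, hee xC x hx xj fun p hp => Nat.eq_of_beq_eq_true (hh5 p hp).1⟩
    · exact ⟨_, hconj y hyQ, hee yC y hy yj fun p hp => Nat.eq_of_beq_eq_true (hh5 p hp).2⟩
  have hG : Q0 P ≤ L' := by
    rw [← J_eq hP]
    apply (Subgroup.closure_le _).2
    rintro z ⟨c, hc, hz⟩
    rw [T_J, List.mem_map] at hc
    obtain ⟨k, hk, rfl⟩ := hc
    have hk' := List.mem_range.1 hk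
    obtain ⟨w, hw, hwv⟩ := evalC_mem hP hall (u := nthW ws k) (fun a ha => by
      have := (allL_eq_true _ _).1 (allN_spec h6 k hk') a ha
      exact Nat.le_of_ble_eq_true this)
    have hzw : z = w := by
      ext p
      rw [val_of_rep hz, hwv]
      exact (Nat.eq_of_beq_eq_true (allN_spec (allN_spec h7 k hk') p p.2)).symm
    rw [hzw]
    exact hw
  apply le_antisymm hLJ
  intro h' hh'
  have h9 : n⁻¹ * h' * n ∈ L' := hG (Subgroup.mul_mem _ (Subgroup.mul_mem _ (Subgroup.inv_mem _ hnJ) hh') hnJ)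
  rw [hmemL'] at h9
  have h10 : n * (n⁻¹ * h' * n) * n⁻¹ = h' := by group
  rwa [h10] at h9

end Model

end Cfsg.Agent.Lib.SuzRec.KL
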