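import Cfsg.Agent.Lib.SuzRec.KL

/-!
# The subgroups of index `416` of `G₂(4)` are the point stabilizers of the action on `416` points
-/

set_option autoImplicit false
set_option maxRecDepth 100000

namespace Cfsg.Agent.Lib.SuzRec.KL2

open scoped Pointwise
open MulAction
open Cfsg.Agent.Lib.PermComp.Core Cfsg.Agent.Lib.FusionSimple2.Codes
open Cfsg.Agent.Lib.TC.Enc Cfsg.Agent.Lib.SuzRec.Basic Cfsg.Agent.Lib.SuzRec.KLData
  Cfsg.Agent.Lib.SuzRec.KLChecks Cfsg.Agent.Lib.SuzRec.KL
open Cfsg.Agent.Lib.G24J2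

local notation "PP" => Equiv.Perm (Fin 416)
local notation "RR" => Rep 9 511 (Equiv.refl (Fin 416))
local notation "HH" => H 9 511 (Equiv.refl (Fin 416))

variable {P : Subgroup PP} (hP : Model P)
include hP

/-- A subgroup of the Hall-Janko group containing a Sylow `5`-subgroup with at least `1454` elements is the whole group. -/
theorem kl {L : Subgroup PP} (hLJ : L ≤ Q0 P) (hQ : QQ ≤ L) (hc : 1454 ≤ Nat.card L) : L = Q0 P := by
  classical
  by_contra hne
  have hlab : ∀ g ∈ L, ∀ i < 2016, g • F i0 = F i → labX i = 0 ∨ labX i = 17 := by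
    intro g hg i hi he
    by_contra h
    push Not at h
    exact hne (gen_class hP hLJ hQ hg hi he h.1 h.2)
  have hi0 := i0_lt hP
  have hl0 : labX i0 = 0 := Nat.eq_of_beq_eq_true ((ifB_eq_true _ _).1 labX_i0).1
  have hex : ∀ g ∈ L, ∃ i < 2016, g • F i0 = F i := fun g hg => orbit_in hP (hLJ hg) hi0
  by_cases hfix : ∀ g ∈ L, g • F i0 = F i0
  · have hle : L ≤ NN := fun g hg => stab_le hP (hLJ hg) (hfix g hg)
    have h2 := Subgroup.card_le_of_le hle
    rw [card_NN hP] at h2
    omega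
  push Not at hfix
  obtain ⟨g, hgL, hgf⟩ := hfix
  obtain ⟨i, hi, hgi⟩ := hex g hgL
  have hi17 : labX i = 17 := by
    rcases hlab g hgL i hi hgi with h | h
    · exfalso
      obtain ⟨n, hn, he⟩ := lab_same hP hi0 hi (hl0.trans h.symm)
      rw [NN_fix hP hn] at he
      exact hgf (hgi.trans he.symm)
    · exact h
  have hroot := (ifB_eq_true _ _).1 (allN_spec roots_lab 17 (by norm_num))
  have hrl : labX (nthN rootsN 17) = 17 := Nat.eq_of_beq_eq_true hroot.1
  have hrlt : nthN rootsN 17 < 2016 := Nat.le_of_ble_eq_true hroot.2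
  obtain ⟨n, hn, hnf⟩ := lab_same hP hrlt hi (hrl.trans hi17.symm)
  have hnJ := NN_le hP hn
  have hexc := (ifB_eq_true _ _).1 exc_ok
  have hexc2 := (ifB_eq_true _ _).1 hexc.2
  obtain ⟨e₀, he₀, -, hew⟩ := walk_spec hP (u := eW) (fun a ha => by
    have := (ifB_eq_true _ _).1 ((allL_eq_true _ _).1 hexc.1 a ha)
    exact ⟨Nat.le_of_ble_eq_true this.1, Nat.le_of_ble_eq_true this.2⟩)
  have hef : e₀ • F i0 = F (nthN rootsN 17) := by
    have := (hew i0 hi0).1
    rwa [Nat.eq_of_beq_eq_true hexc2.1] at this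
  let t : PP := (n * e₀)⁻¹ * g
  have hgJ := hLJ hgL
  have htJ : t ∈ Q0 P := Subgroup.mul_mem _ (Subgroup.inv_mem _ (Subgroup.mul_mem _ hnJ he₀)) hgJ
  have htf : t • F i0 = F i0 := by
    show ((n * e₀)⁻¹ * g) • F i0 = F i0
    rw [mul_smul, hgi, ← hnf, ← hef, inv_smul_eq_iff, mul_smul]
  have htN : t ∈ NN := stab_le hP htJ htf
  have hg_eq : g = n * e₀ * t := (mul_inv_cancel_left _ _).symm
  -- the orbit
  have hOr : orbit L (F i0) ⊆ ((C6.toFinset.image fun k => n • F k : Finset (Finset (Fin 416))) : Set _) := by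
    rintro _ ⟨g', rfl⟩
    have hg' : (g' : PP) ∈ L := g'.2
    obtain ⟨a, ha, hae⟩ := hex (g⁻¹ * g') (Subgroup.mul_mem _ (Subgroup.inv_mem _ hgL) hg')
    have hal := hlab _ (Subgroup.mul_mem _ (Subgroup.inv_mem _ hgL) hg') a ha hae
    obtain ⟨b, hb, hbe, hbl⟩ := lab_inv hP htN ha
    obtain ⟨hw1, hw2⟩ := hew b hb
    have hgf' : (g' : PP) • F i0 = n • F (walk eW b) := by
      have h1 : (g' : PP) = g * (g⁻¹ * g') := by group
      rw [h1, mul_smul, hae, hg_eq, mul_smul, mul_smul, hbe, hw1]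
    obtain ⟨c', hc', hce⟩ := hex g' hg'
    have hcl := hlab _ hg' c' hc' hce
    -- the label of the image
    have hwl : labX (walk eW b) = labX c' := by
      obtain ⟨j, hj, hje, hjl⟩ := lab_inv hP (Subgroup.inv_mem _ hn) hc'
      have h2 : F j = F (walk eW b) := by
        rw [← hje, ← hce, hgf', inv_smul_smul]
      rw [← F_inj hj hw2 h2, hjl]
    have hmem : walk eW b ∈ C6 := by
      have h3 := allN_spec imgE_ok b hb
      rw [orC_eq_true] at h3
      rcases h3 with h3 | h3
      · exfalso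
        obtain ⟨h4, h5⟩ := (ifB_eq_true _ _).1 h3
        have h6 : labX b ≠ 0 := by
          intro h7
          have h8 := h4
          rw [neB, h7] at h8
          exact absurd h8 (by decide)
        have h7' : labX b ≠ 17 := by
          intro h7
          have h8 := h5
          rw [neB, h7] at h8
          exact absurd h8 (by decide)
        rw [hbl] at h6 h7'
        rcases hal with h9 | h9
        · exact h6 h9
        · exact h7' h9
      · rw [force_eq, orC_eq_true] at h3
        rcases h3 with h3 | h3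
        · exfalso
          obtain ⟨h4, h5⟩ := (ifB_eq_true _ _).1 h3
          rw [hwl] at h4 h5
          rcases hcl with h9 | h9
          · rw [neB, h9] at h4
            exact absurd h4 (by decide)
          · rw [neB, h9] at h5
            exact absurd h5 (by decide)
        · exact (memN_eq_true _ _).1 h3
    show (g' : PP) • F i0 ∈ _
    rw [hgf']
    simp only [Finset.coe_image, Set.mem_image]
    exact ⟨walk eW b, by simpa using hmem, rfl⟩
  have hOrc : (orbit L (F i0)).ncard ≤ 6 := by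
    have h1 := Set.ncard_le_ncard hOr (Finset.finite_toSet _)
    rw [Set.ncard_coe_finset] at h1
    refine h1.trans (Finset.card_image_le.trans ?_)
    exact (List.toFinset_card_le _).trans C6_len.le
  -- the stabilizer
  have h1 := (stabilizer L (F i0)).card_mul_index
  rw [index_stabilizer] at h1
  let S' : Subgroup PP := (stabilizer L (F i0)).map L.subtype
  have hS' : Nat.card S' = Nat.card (stabilizer L (F i0)) :=
    (Nat.card_congr (Subgroup.equivMapOfInjective _ _ L.subtype_injective).toEquiv).symm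
  have hS'N : S' ≤ NN := by
    rintro _ ⟨u, hu, rfl⟩
    exact stab_le hP (hLJ u.2) hu
  have hd := Subgroup.card_dvd_of_le hS'N
  rw [card_NN hP, hS'] at hd
  have hge : 243 ≤ Nat.card (stabilizer L (F i0)) := by
    by_contra hlt
    push Not at hlt
    have : Nat.card (stabilizer L (F i0)) * (orbit L (F i0)).ncard ≤ 242 * 6 :=
      Nat.mul_le_mul (by omega) hOrc
    omega
  have h300 : Nat.card (stabilizer L (F i0)) = 300 := by
    obtain ⟨k, hk⟩ := hd
    have hpos : 0 < k := by
      rcases Nat.eq_zero_or_pos k with rfl | h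
      · omega
      · exact h
    have hk1 : k = 1 := by
      by_contra hne1
      have hk2 : 2 ≤ k := by omega
      have : 243 * 2 ≤ Nat.card (stabilizer L (F i0)) * k := Nat.mul_le_mul hge hk2
      omega
    rw [hk1] at hk
    omega
  have hNS : NN ≤ S' := by
    have := Subgroup.eq_of_le_of_card_ge hS'N (by rw [card_NN hP, hS', h300])
    exact this.ge
  have hNL : NN ≤ L := by
    intro x hx
    obtain ⟨u, -, rfl⟩ := hNS hx
    exact u.2
  -- all the sets of the exceptional label are in the orbit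
  have hsub : (((Finset.univ.filter fun k : Fin 2016 => labX k = 17).image fun k : Fin 2016 => F (k : ℕ) :
      Finset (Finset (Fin 416))) : Set (Finset (Fin 416))).ncard ≤ (orbit L (F i0)).ncard := by
    apply Set.ncard_le_ncard _ (Set.toFinite _)
    intro S hS
    simp only [Finset.coe_image, Set.mem_image, Finset.mem_coe, Finset.mem_filter, Finset.mem_univ, true_and] at hS
    obtain ⟨k, hk, rfl⟩ := hS
    obtain ⟨n', hn', he'⟩ := lab_same hP hi k.2 (hi17.trans hk.symm)
    refine ⟨⟨n' * g, Subgroup.mul_mem _ (hNL hn') hgL⟩, ?_⟩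
    show (n' * g) • F i0 = F k
    rw [mul_smul, hgi, he']
  rw [Set.ncard_coe_finset, Finset.card_image_of_injOn, szExc] at hsub
  · omega
  · intro x _ y _ hxy
    exact Fin.ext (F_inj x.2 y.2 hxy)

/-- **The subgroups of index `416`.** -/
theorem index416 {H' : Subgroup PP} (hH : H' ≤ P) (hc : Nat.card H' = 604800) :
    ∃ q : Fin 416, H' = P ⊓ stabilizer PP q := by
  classical
  haveI hp5 : Fact (Nat.Prime 5) := ⟨by norm_num⟩
  -- in the group
  let A : Subgroup P := H'.subgroupOf P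
  have hAc : Nat.card A = 604800 := by
    rw [← hc]
    exact Nat.card_congr (Subgroup.subgroupOfEquivOfLe hH).toEquiv
  obtain ⟨K, hKc, hKA⟩ : ∃ K : Subgroup A, Nat.card K = 5 ^ 2 ∧ True := by
    obtain ⟨K, hK⟩ := Sylow.exists_subgroup_card_pow_prime (G := A) 5 (n := 2) (by rw [hAc]; norm_num)
    exact ⟨K, hK, trivial⟩
  let K' : Subgroup P := K.map A.subtype
  have hK'c : Nat.card K' = 25 := by
    have : Nat.card K' = Nat.card K :=
      (Nat.card_congr (Subgroup.equivMapOfInjective _ _ A.subtype_injective).toEquiv).symm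
    rw [this, hKc]
    norm_num
  let Q' : Subgroup P := (QQ : Subgroup PP).subgroupOf P
  have hQP : QQ ≤ P := (QQ_le hP).trans inf_le_left
  have hQ'c : Nat.card Q' = 25 := by
    rw [← card_QQ hP]
    exact Nat.card_congr (Subgroup.subgroupOfEquivOfLe hQP).toEquiv
  have key : ∀ K₀ : Subgroup P, Nat.card K₀ = 25 → ∃ S : Sylow 5 P, (S : Subgroup P) = K₀ := by
    intro K₀ hK₀
    have hp : IsPGroup 5 K₀ := by
      apply IsPGroup.of_card (n := 2)
      rw [hK₀]
      norm_num
    obtain ⟨S, hS⟩ := hp.exists_le_sylow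
    refine ⟨S, le_antisymm ?_ hS⟩
    obtain ⟨n, hn⟩ := IsPGroup.iff_card.1 S.isPGroup'
    have hdvd : Nat.card S ∣ Nat.card P := Subgroup.card_subgroup_dvd_card _
    rw [hP.card, hn] at hdvd
    have hn1 : n ≤ 2 := by
      by_contra hlt
      push Not at hlt
      have h3 : 5 ^ 3 ∣ 251596800 := dvd_trans (pow_dvd_pow 5 hlt) hdvd
      norm_num at h3
    have hle : Nat.card S ≤ Nat.card K₀ := by
      rw [hn, hK₀]
      calc 5 ^ n ≤ 5 ^ 2 := Nat.pow_le_pow_right (by norm_num) hn1
        _ = 25 := by norm_num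
    exact (Subgroup.eq_of_le_of_card_ge hS hle).ge
  obtain ⟨S₁, hS₁⟩ := key K' hK'c
  obtain ⟨S₂, hS₂⟩ := key Q' hQ'c
  obtain ⟨u, hu⟩ := MulAction.exists_smul_eq P S₂ S₁
  -- `u Q u⁻¹ ≤ H'`
  have hconj : ∀ q ∈ (QQ : Subgroup PP), (u : PP) * q * (u : PP)⁻¹ ∈ H' := by
    intro q hq
    have h1 : (⟨q, hQP hq⟩ : P) ∈ Q' := hq
    have h2 : u * ⟨q, hQP hq⟩ * u⁻¹ ∈ (S₁ : Subgroup P) := by
      rw [← hu, Sylow.coe_subgroup_smul]
      rw [← hS₂] at h1
      exact ⟨_, h1, rfl⟩
    rw [hS₁] at h2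
    obtain ⟨z, -, hz⟩ := h2
    have h3 : (A.subtype z : P) ∈ A := z.2
    rw [hz] at h3
    exact h3
  let H'' : Subgroup PP := H'.comap (MulAut.conj (u : PP)).toMonoidHom
  have hmem'' : ∀ x, x ∈ H'' ↔ (u : PP) * x * (u : PP)⁻¹ ∈ H' := fun x => Iff.rfl
  have hH''P : H'' ≤ P := by
    intro x hx
    have h1 := hH ((hmem'' x).1 hx)
    have h2 : x = (u : PP)⁻¹ * ((u : PP) * x * (u : PP)⁻¹) * (u : PP) := by group
    rw [h2]
    exact Subgroup.mul_mem _ (Subgroup.mul_mem _ (Subgroup.inv_mem _ u.2) h1) u.2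
  have hH''c : Nat.card H'' = 604800 := by
    rw [← hc]
    exact Nat.card_congr (Equiv.subtypeEquiv (MulAut.conj (u : PP)).toEquiv fun x => hmem'' x : H'' ≃ H')
  let L : Subgroup PP := H'' ⊓ stabilizer PP p0
  have hLQ : L ≤ Q0 P := fun x hx => ⟨hH''P hx.1, hx.2⟩
  have hQL : QQ ≤ L := fun x hx => ⟨hconj x hx, ((QQ_le hP) hx).2⟩
  have hLc : 1454 ≤ Nat.card L := by
    have h1 := Cfsg.Agent.Lib.SuzRec.Det.card_le_of_orbit (n := 416) H'' p0 Finset.univ (fun _ _ => Finset.mem_univ _)
    rw [Finset.card_univ, Fintype.card_fin, hH''c] at h1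
    have h2 : (604800 : ℕ) ≤ 416 * Nat.card L := h1
    omega
  have hL := kl hP hLQ hQL hLc
  have hle : Q0 P ≤ H'' := by
    rw [← hL]
    exact inf_le_left
  have heq : Q0 P = H'' := Subgroup.eq_of_le_of_card_ge hle (by rw [card_Q0 hP, hH''c])
  refine ⟨(u : PP) p0, ?_⟩
  ext x
  constructor
  · intro hx
    refine ⟨hH hx, ?_⟩
    have h1 : (u : PP)⁻¹ * x * (u : PP) ∈ H'' := by
      rw [hmem'']
      have : (u : PP) * ((u : PP)⁻¹ * x * (u : PP)) * (u : PP)⁻¹ = x := by group
      rwa [this]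
    rw [← heq] at h1
    have h2 : ((u : PP)⁻¹ * x * (u : PP)) p0 = p0 := h1.2
    have h3 : x ((u : PP) p0) = (u : PP) p0 := by
      simp only [Equiv.Perm.mul_apply] at h2
      rw [Equiv.Perm.inv_eq_iff_eq] at h2
      exact h2
    exact h3
  · rintro ⟨hxP, hxs⟩
    have hxs' : x ((u : PP) p0) = (u : PP) p0 := hxs
    have h1 : (u : PP)⁻¹ * x * (u : PP) ∈ Q0 P := by
      refine ⟨Subgroup.mul_mem _ (Subgroup.mul_mem _ (Subgroup.inv_mem _ u.2) hxP) u.2, ?_⟩
      show ((u : PP)⁻¹ * x * (u : PP)) p0 = p0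
      simp only [Equiv.Perm.mul_apply]
      rw [hxs']
      simp
    rw [heq, hmem''] at h1
    have : (u : PP) * ((u : PP)⁻¹ * x * (u : PP)) * (u : PP)⁻¹ = x := by group
    rwa [this] at h1

end Cfsg.Agent.Lib.SuzRec.KL2
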