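import Cfsg.Agent.Lib.SuzRec.Basic
import Cfsg.Agent.Lib.SuzRec.KLData
import Cfsg.Agent.Lib.SuzRec.CertQ
import Cfsg.Agent.Lib.SuzRec.CertN
import Cfsg.Agent.Lib.SuzRec.CertJ
import Cfsg.Agent.Lib.SuzRec.CertU

/-!
# Kernel checks on the Sylow `5`-subgroups of the Hall-Janko group
-/

set_option maxRecDepth 100000

namespace Cfsg.Agent.Lib.SuzRec.KLChecks

open Cfsg.Agent.Lib.PermComp.Core Cfsg.Agent.Lib.FusionSimple2.Codes
open Cfsg.Agent.Lib.TC.Enc Cfsg.Agent.Lib.SuzRec.Basic Cfsg.Agent.Lib.SuzRec.KLData
open Cfsg.Agent.Lib.G24J2 (T6 evalW maskL lettersOK nthW)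

/-- The masks. -/
noncomputable def Xm (i : ℕ) : ℕ := XT.get i

/-- The tables. -/
noncomputable def tb (k i : ℕ) : ℕ := app 11 2047 (nthN tabL k) i

/-- The labels. -/
noncomputable def labX (i : ℕ) : ℕ := app 5 31 labXC i

theorem sorted_ok : allN (fun i => Nat.blt (Xm i) (Xm (Nat.succ i))) 2015 = true := by decide +kernel

theorem top_ok : Nat.blt (Xm 2015) (Nat.pow 2 416) = true := by decide +kernel

theorem g_ok : allN (fun k => ifB (lettersOK (nthW gW k))
    (allN (fun p => Nat.beq (evalW (nthW gW k) p) (app 9 511 (nthN gL k) p)) 416)) 7 = true := by decide +kernel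

theorem g0_ok : allN (fun k => Nat.beq (app 9 511 (nthN gL k) 0) 0) 7 = true := by decide +kernel

theorem ginv_ok : allN (fun k => allN (fun p => Nat.beq (app 9 511 (nthN gL k) (app 9 511 (nthN gL k) p)) p) 416) 7 = true := by
  decide +kernel

/-- The check of the table of a generator on a set. -/
noncomputable def tabI (k i : ℕ) : Bool :=
  force (nthN gL k) fun c => force (nthN tabL k) fun t =>
    force (app 11 2047 t i) fun j => ifB (Nat.blt j 2016) (ifB (Nat.beq (app 11 2047 t j) i)
      (force (Xm j) fun mj => force (Xm i) fun mi =>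
        allN (fun p => orC (Bool.rec true false (bit mi p)) (bit mj (app 9 511 c p))) 416))

/-- The check of the table of a generator on a range of sets. -/
noncomputable def tabOK (k lo len : ℕ) : Bool :=
  allN (fun d => tabI k (Nat.add lo d)) len

theorem tab0_0 : tabOK 0 0 672 = true := by decide +kernel
theorem tab0_1 : tabOK 0 672 672 = true := by decide +kernel
theorem tab0_2 : tabOK 0 1344 672 = true := by decide +kernel

theorem tab1_0 : tabOK 1 0 672 = true := by decide +kernel
theorem tab1_1 : tabOK 1 672 672 = true := by decide +kernel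
theorem tab1_2 : tabOK 1 1344 672 = true := by decide +kernel

theorem tab2_0 : tabOK 2 0 672 = true := by decide +kernel
theorem tab2_1 : tabOK 2 672 672 = true := by decide +kernel
theorem tab2_2 : tabOK 2 1344 672 = true := by decide +kernel

theorem tab3_0 : tabOK 3 0 672 = true := by decide +kernel
theorem tab3_1 : tabOK 3 672 672 = true := by decide +kernel
theorem tab3_2 : tabOK 3 1344 672 = true := by decide +kernel

theorem tab4_0 : tabOK 4 0 672 = true := by decide +kernel
theorem tab4_1 : tabOK 4 672 672 = true := by decide +kernel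
theorem tab4_2 : tabOK 4 1344 672 = true := by decide +kernel

theorem tab5_0 : tabOK 5 0 672 = true := by decide +kernel
theorem tab5_1 : tabOK 5 672 672 = true := by decide +kernel
theorem tab5_2 : tabOK 5 1344 672 = true := by decide +kernel

theorem tab6_0 : tabOK 6 0 672 = true := by decide +kernel
theorem tab6_1 : tabOK 6 672 672 = true := by decide +kernel
theorem tab6_2 : tabOK 6 1344 672 = true := by decide +kernel

theorem tab_split {k : ℕ} (h0 : tabOK k 0 672 = true) (h1 : tabOK k 672 672 = true) (h2 : tabOK k 1344 672 = true)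
    {i : ℕ} (hi : i < 2016) : tabI k i = true := by
  have key : ∀ {lo : ℕ}, tabOK k lo 672 = true → ∀ {d : ℕ}, d < 672 → tabI k (lo + d) = true := by
    intro lo h d hd
    have h' : allN (fun d => tabI k (Nat.add lo d)) 672 = true := h
    exact allN_spec h' d hd
  rcases Nat.lt_or_ge i 672 with h | h
  · have := key h0 h
    rwa [Nat.zero_add] at this
  · rcases Nat.lt_or_ge i 1344 with h' | h'
    · have := key h1 (d := i - 672) (by omega)
      rwa [show 672 + (i - 672) = i by omega] at this
    · have := key h2 (d := i - 1344) (by omega)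
      rwa [show 1344 + (i - 1344) = i by omega] at this

theorem tab_all {k : ℕ} (hk : k < 7) {i : ℕ} (hi : i < 2016) : tabI k i = true := by
  have hk' : k = 0 ∨ k = 1 ∨ k = 2 ∨ k = 3 ∨ k = 4 ∨ k = 5 ∨ k = 6 := by omega
  rcases hk' with rfl | rfl | rfl | rfl | rfl | rfl | rfl
  · exact tab_split tab0_0 tab0_1 tab0_2 hi
  · exact tab_split tab1_0 tab1_1 tab1_2 hi
  · exact tab_split tab2_0 tab2_1 tab2_2 hi
  · exact tab_split tab3_0 tab3_1 tab3_2 hi
  · exact tab_split tab4_0 tab4_1 tab4_2 hi
  · exact tab_split tab5_0 tab5_1 tab5_2 hi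
  · exact tab_split tab6_0 tab6_1 tab6_2 hi

theorem treeJ_par : parOK treeJ (setBit 0 i0) = true := by decide +kernel

theorem treeJ_ent : allL (fun e : ℕ × ℕ × ℕ => ifB (Nat.blt e.2.1 4) (Nat.beq e.1 (tb e.2.1 e.2.2))) treeJ = true := by
  decide +kernel

theorem treeJ_cov : force (treeMem treeJ (setBit 0 i0)) (fun M => allN (bit M) 2016) = true := by decide +kernel

theorem treeN_par : parOK treeN (maskL rootsN) = true := by decide +kernel

theorem treeN_ent : allL (fun e : ℕ × ℕ × ℕ => ifB (Nat.ble 4 e.2.1) (ifB (Nat.blt e.2.1 7) (ifB (Nat.beq e.1 (tb e.2.1 e.2.2))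
    (Nat.beq (labX e.1) (labX e.2.2))))) treeN = true := by decide +kernel

theorem treeN_root : allL (fun r => Nat.beq (nthN rootsN (labX r)) r) rootsN = true := by decide +kernel

theorem treeN_cov : force (treeMem treeN (maskL rootsN)) (fun M => allN (bit M) 2016) = true := by decide +kernel

theorem labN_inv : allN (fun k => allN (fun i => Nat.beq (labX (tb (Nat.add k 4) i)) (labX i)) 2016) 3 = true := by decide +kernel

theorem labX_i0 : ifB (Nat.beq (labX i0) 0) (ifB (Nat.ble i0 2015) (Nat.beq (nthN rootsN 0) i0)) = true := by decide +kernel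

theorem roots_lt : allL (fun r => Nat.blt r 2016) rootsN = true := by decide +kernel

theorem szExc : (Finset.univ.filter fun i : Fin 2016 => labX i = 17).card = 15 := by decide +kernel

theorem exc_val : Nat.beq excL 17 = true := by decide +kernel

theorem T_J : Cfsg.Agent.Lib.SuzRec.CertJ.cJ_T = (List.range 4).map (nthN gL) := by decide +kernel

theorem T_N : Cfsg.Agent.Lib.SuzRec.CertN.cN_T = (List.range 3).map (fun k => nthN gL (Nat.add k 4)) := by decide +kernel

theorem T_Q : Cfsg.Agent.Lib.SuzRec.CertQ.cQ_T = [xC, yC] := by decide +kernel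

theorem T_U : Cfsg.Agent.Lib.SuzRec.CertU.cU_T = Cfsg.Agent.Lib.SuzRec.Data2.uC := by decide +kernel

/-- The elements of the Sylow subgroup. -/
theorem xy_ok : ifB (lettersOK xW) (ifB (lettersOK yW) (ifB (allN (fun p => Nat.beq (evalW xW p) (app 9 511 xC p)) 416)
    (ifB (allN (fun p => Nat.beq (evalW yW p) (app 9 511 yC p)) 416)
    (ifB (Nat.beq (app 9 511 xC 0) 0) (Nat.beq (app 9 511 yC 0) 0))))) = true := by decide +kernel

/-- A power of a code applied to a point. -/
noncomputable def powC (c : ℕ) (a : ℕ) (p : ℕ) : ℕ := Nat.rec p (fun _ ih => force ih fun y => app 9 511 c y) a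

/-- The action of the generators of the normaliser on the Sylow subgroup. -/
theorem qrel_ok : allN (fun k => force (nthN gL (Nat.add k 4)) fun n =>
    ifB (allN (fun p => Nat.beq (app 9 511 n (app 9 511 xC (app 9 511 n p)))
        (powC xC (List.getD qrel (Nat.mul 2 k) (0, 0)).1 (powC yC (List.getD qrel (Nat.mul 2 k) (0, 0)).2 p))) 416)
      (allN (fun p => Nat.beq (app 9 511 n (app 9 511 yC (app 9 511 n p)))
        (powC xC (List.getD qrel (Nat.succ (Nat.mul 2 k)) (0, 0)).1 (powC yC (List.getD qrel (Nat.succ (Nat.mul 2 k)) (0, 0)).2 p))) 416)) 3 = true := by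
  decide +kernel

/-- The walk of a word through the tables of the letters. -/
noncomputable def walk (u : List ℕ) : ℕ → ℕ :=
  List.rec (motive := fun _ => ℕ → ℕ) (fun i => i)
    (fun a _ ih i => force (ih i) fun j => tb (Nat.pred a) j) u

/-- The image of a point under a word in given codes. -/
noncomputable def evalC (T : List ℕ) (u : List ℕ) : ℕ → ℕ :=
  List.rec (motive := fun _ => ℕ → ℕ) (fun x => x)
    (fun a _ ih x => force (ih x) fun y => app 9 511 (nthN T a) y) u

/-- The checks for a class of Sylow subgroups generating the whole group. -/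
noncomputable def genOK (d : ℕ × ℕ × ℕ × ℕ × List ℕ × List (List ℕ)) : Bool :=
  force d.2.1 fun xj => force d.2.2.1 fun yj => force d.2.2.2.1 fun e =>
  ifB (Nat.blt d.1 18) <|
  ifB (allL (fun a => ifB (Nat.ble 1 a) (Nat.ble a 4)) d.2.2.2.2.1) <|
  ifB (Nat.beq (walk d.2.2.2.2.1 i0) (nthN rootsN d.1)) <|
  ifB (allN (fun p => Nat.beq (evalW d.2.2.2.2.1 p) (app 9 511 e p)) 416) <|
  ifB (allN (fun p => ifB (Nat.beq (app 9 511 xj (app 9 511 e p)) (app 9 511 e (app 9 511 xC p)))
      (Nat.beq (app 9 511 yj (app 9 511 e p)) (app 9 511 e (app 9 511 yC p)))) 416) <|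
  ifB (allN (fun k => allL (fun a => Nat.blt a 4) (nthW d.2.2.2.2.2 k)) 4) <|
  allN (fun k => allN (fun p => Nat.beq (evalC [xC, yC, xj, yj] (nthW d.2.2.2.2.2 k) p) (app 9 511 (nthN gL k) p)) 416) 4

theorem genD_ok : allL genOK genD = true := by decide +kernel

/-- All the labels other than `0` and the exceptional one occur in the data. -/
theorem genD_cov : allN (fun j => orC (Nat.beq j 0) (orC (Nat.beq j 17) (anyL (fun d => Nat.beq d.1 j) genD))) 18 = true := by
  decide +kernel

theorem labX_lt : allN (fun i => Nat.blt (labX i) 18) 2016 = true := by decide +kernel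

/-- The exceptional conjugator. -/
theorem exc_ok : ifB (allL (fun a => ifB (Nat.ble 1 a) (Nat.ble a 4)) eW)
    (ifB (Nat.beq (walk eW i0) (nthN rootsN 17)) (allN (fun p => Nat.beq (evalW eW p) (app 9 511 eC p)) 416)) = true := by
  decide +kernel

/-- The images of the exceptional points: those inside lie in the list of six. -/
theorem imgE_ok : allN (fun i => orC (ifB (neB (labX i) 0) (neB (labX i) 17))
    (force (walk eW i) fun k => orC (ifB (neB (labX k) 0) (neB (labX k) 17)) (memN k C6))) 2016 = true := by
  decide +kernel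

theorem C6_len : C6.length = 6 := by decide +kernel

theorem N_fix : allN (fun k => Nat.beq (tb (Nat.add k 4) i0) i0) 3 = true := by decide +kernel

/-- The first four generators are letters. -/
theorem letters_ok : allN (fun k => allN (fun p => Nat.beq (ap (Nat.succ k) p) (app 9 511 (nthN gL k) p)) 416) 4 = true := by
  decide +kernel

theorem roots_lab : allN (fun j => ifB (Nat.beq (labX (nthN rootsN j)) j) (Nat.blt (nthN rootsN j) 2016)) 18 = true := by
  decide +kernel

end Cfsg.Agent.Lib.SuzRec.KLChecks
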